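import Cfsg.Agent.Lib.Classical.Simple

/-!
The derived subgroup of the general linear group.
-/

set_option autoImplicit false

namespace Cfsg.Agent.Lib.Classical

open Matrix
open scoped commutatorElement

variable {ι : Type*} [Fintype ι] [DecidableEq ι] {F : Type*} [Field F]

theorem GL_commutator_eq_ker_det
    (h : (∃ a : F, a ≠ 0 ∧ a ≠ 1) ∨ Fintype.card ι ≠ 2) :
    commutator (GL ι F) = (GeneralLinearGroup.det : GL ι F →* Fˣ).ker := by
  refine le_antisymm (Abelianization.commutator_subset_ker _) fun g hg => ?_
  have hg' : (g : Matrix ι ι F).det = 1 := by
    simpa using congrArg Units.val hg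
  have hkey : ∀ A : SpecialLinearGroup ι F, SpecialLinearGroup.toGL A ∈ commutator (GL ι F) := by
    by_cases ha : ∃ a : F, a ≠ 0 ∧ a ≠ 1
    · obtain ⟨a, ha0, ha1⟩ := ha
      intro A
      refine SL_transvection_induction
        (fun A => SpecialLinearGroup.toGL A ∈ commutator (GL ι F))
        (by rw [map_one]; exact Subgroup.one_mem _) (fun i j hij c => ?_)
        (fun A B hA hB => by rw [map_mul]; exact Subgroup.mul_mem _ hA hB) A
      set d : ι → F := Function.update 1 i a with hd
      have hdet : (diagonal d).det ≠ 0 := by
        rw [det_diagonal, Finset.prod_ne_zero_iff]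
        intro k _
        by_cases hk : k = i
        · simp [hd, hk, ha0]
        · simp [hd, hk]
      set D : GL ι F := GeneralLinearGroup.mkOfDetNeZero _ hdet with hD
      set b := c / (a - 1) with hb
      have hb' : a * b = c + b := by
        have : b * (a - 1) = c := div_mul_cancel₀ _ (sub_ne_zero.2 ha1)
        linear_combination this
      have e : D * SpecialLinearGroup.toGL (SpecialLinearGroup.transvection hij b) =
          SpecialLinearGroup.toGL (SpecialLinearGroup.transvection hij c) *
            SpecialLinearGroup.toGL (SpecialLinearGroup.transvection hij b) * D := by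
        rw [← map_mul, show SpecialLinearGroup.transvection hij c *
            SpecialLinearGroup.transvection hij b = SpecialLinearGroup.transvection hij (a * b) from
          Subtype.ext (by rw [hb']; exact Matrix.transvection_mul_transvection_same i j hij c b)]
        apply Units.ext
        change diagonal d * (1 + Matrix.single i j b) = (1 + Matrix.single i j (a * b)) * diagonal d
        ext r s
        simp only [Matrix.diagonal_mul, Matrix.mul_diagonal, Matrix.add_apply, Matrix.one_apply,
          Matrix.single_apply, hd, Function.update_apply, Pi.one_apply]
        split_ifs <;> grind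
      have e2 : SpecialLinearGroup.toGL (SpecialLinearGroup.transvection hij c) =
          ⁅D, SpecialLinearGroup.toGL (SpecialLinearGroup.transvection hij b)⁆ := by
        rw [commutatorElement_def, e]; group
      rw [e2]
      exact Subgroup.commutator_mem_commutator (Subgroup.mem_top _) (Subgroup.mem_top _)
    · have hn := h.resolve_left ha
      intro A
      rcases Nat.lt_or_ge (Fintype.card ι) 2 with h2 | h2
      · refine SL_transvection_induction
          (fun A => SpecialLinearGroup.toGL A ∈ commutator (GL ι F))
          (by rw [map_one]; exact Subgroup.one_mem _) (fun i j hij _ => ?_)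
          (fun A B hA hB => by rw [map_mul]; exact Subgroup.mul_mem _ hA hB) A
        exact absurd (Fintype.one_lt_card_iff.2 ⟨i, j, hij⟩) (by omega)
      · have hmem : A ∈ commutator (SpecialLinearGroup ι F) := by
          rw [SL_commutator_eq_top (by omega)]; trivial
        rw [commutator_def]
        have := Subgroup.mem_map_of_mem (SpecialLinearGroup.toGL : SpecialLinearGroup ι F →* GL ι F) hmem
        rw [commutator_def, Subgroup.map_commutator] at this
        exact Subgroup.commutator_mono le_top le_top this
  have := hkey ⟨g, hg'⟩
  convert this using 1
  exact Units.ext rfl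

end Cfsg.Agent.Lib.Classical
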