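import Cfsg.Agent.Lib.Classical.QuadStd

/-!
The isometry group of an anisotropic plane is dihedral.
-/

set_option autoImplicit false

namespace Cfsg.Agent.Lib.Classical.Quad

open QuadraticMap

variable {F : Type*} [Field F]

/-- The matrix isometry group as a group of linear equivalences. -/
lemma isometryGroup_equiv {V : Type*} [AddCommGroup V] [Module F V] {ι : Type} [Fintype ι]
    [DecidableEq ι] (f : (ι → F) → F) {Q : QuadraticForm F V} (e : V ≃ₗ[F] (ι → F))
    (he : ∀ v, f (e v) = Q v) : Nonempty (Cfsg.isometryGroup F f ≃* isoG Q) := by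
  let φ := (Matrix.GeneralLinearGroup.toLin (n := ι) (R := F)).trans
    ((LinearMap.GeneralLinearGroup.generalLinearEquiv F (ι → F)).trans (conjAut e.symm))
  have hφ : ∀ g v, φ g v = e.symm ((g : Matrix ι ι F).mulVec (e v)) := fun g v => rfl
  refine ⟨{ toEquiv := φ.toEquiv.subtypeEquiv fun g => ?_
            map_mul' := fun g h => Subtype.ext (map_mul φ g.1 h.1) }⟩
  change g ∈ _ ↔ ∀ v, Q (φ g v) = Q v
  constructor
  · intro h v
    rw [hφ, ← he, e.apply_symm_apply, ← he]
    exact h (e v) 0
  · intro h u _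
    change f ((g : Matrix ι ι F).mulVec u) = f u
    have := h (e.symm u)
    rwa [hφ, ← he, ← he, e.apply_symm_apply, e.apply_symm_apply] at this

theorem isoG_binQ_dihedral [Fintype F] {a b : F} (hab : Aniso a b) :
    Nonempty (isoG (binQ a b) ≃* DihedralGroup (Fintype.card F + 1)) := by
  classical
  set N := Fintype.card F + 1 with hN
  have hfin : Finite ((Fin 2 → F) ≃ₗ[F] (Fin 2 → F)) := Finite.of_injective _ DFunLike.coe_injective
  -- rotations
  let R : Subgroup ((Fin 2 → F) ≃ₗ[F] (Fin 2 → F)) :=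
    { carrier := {g | g ∈ isoG (binQ a b) ∧ ∀ v, g v = mulW a b (g (Pi.single 0 1)) v}
      one_mem' := ⟨Subgroup.one_mem _, fun v => by
        ext i; fin_cases i <;> simp [mulW_apply]⟩
      mul_mem' := fun {x y} hx hy => ⟨Subgroup.mul_mem _ hx.1 hy.1, fun v => by
        rw [LinearEquiv.mul_apply, LinearEquiv.mul_apply, hx.2 (y v), hy.2 v,
          hx.2 (y (Pi.single 0 1))]
        ext i; fin_cases i <;> simp [mulW_apply] <;> ring⟩
      inv_mem' := fun {x} hx => ⟨Subgroup.inv_mem _ hx.1, fun v => x.injective (by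
        rw [← LinearEquiv.mul_apply, mul_inv_cancel, hx.2 (mulW a b _ v)]
        set w := x⁻¹ (Pi.single 0 1) with hw
        set u := x (Pi.single 0 1) with hu
        have hwu : mulW a b u w = Pi.single 0 1 := by
          rw [← hx.2, hw, ← LinearEquiv.mul_apply, mul_inv_cancel]; rfl
        have h0 := congrFun hwu 0
        have h1 := congrFun hwu 1
        simp [mulW_apply] at h0 h1
        ext i
        fin_cases i <;> simp [mulW_apply]
        · linear_combination -(v 0) * h0 + b * v 1 * h1
        · linear_combination -(v 1) * h0 - (v 0 + a * v 1) * h1)⟩ }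
  obtain ⟨μ, hμ⟩ := IsAlgClosed.exists_root
    (Polynomial.X ^ 2 - Polynomial.C (algebraMap F (AlgebraicClosure F) a) * Polynomial.X +
      Polynomial.C (algebraMap F (AlgebraicClosure F) b))
    (by
      have : (Polynomial.X ^ 2 - Polynomial.C (algebraMap F (AlgebraicClosure F) a) * Polynomial.X +
          Polynomial.C (algebraMap F (AlgebraicClosure F) b)).degree = 2 := by compute_degree!
      rw [this]; norm_num)
  simp only [Polynomial.IsRoot, Polynomial.eval_add, Polynomial.eval_sub, Polynomial.eval_pow,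
    Polynomial.eval_X, Polynomial.eval_mul, Polynomial.eval_C] at hμ
  let ι' := algebraMap F (AlgebraicClosure F)
  have hindep : ∀ x y : F, ι' x + ι' y * μ = 1 → x = 1 ∧ y = 0 := by
    intro x y h
    rcases eq_or_ne y 0 with rfl | hy
    · exact ⟨ι'.injective (by simpa using h), rfl⟩
    · exfalso
      have hμe : μ = ι' ((1 - x) / y) := by
        rw [map_div₀, map_sub, map_one, eq_div_iff (by simpa using hy)]
        linear_combination h
      have h0 : ι' (((1 - x) / y) ^ 2 - a * ((1 - x) / y) + b) = 0 := by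
        rw [map_add, map_sub, map_pow, map_mul, ← hμe]; exact hμ
      rw [map_eq_zero] at h0
      exact one_ne_zero (neg_eq_zero.1 (hab ((1 - x) / y) (-1) (by linear_combination h0)).2)
  let χ : R →* AlgebraicClosure F :=
    { toFun := fun g => ι' ((g : (Fin 2 → F) ≃ₗ[F] (Fin 2 → F)) (Pi.single 0 1) 0) +
        ι' ((g : (Fin 2 → F) ≃ₗ[F] (Fin 2 → F)) (Pi.single 0 1) 1) * μ
      map_one' := by simp
      map_mul' := fun g h => by
        rw [Subgroup.coe_mul, LinearEquiv.mul_apply, g.2.2 ((h : (Fin 2 → F) ≃ₗ[F] (Fin 2 → F)) _), mulW_apply]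
        simp only [Matrix.cons_val_zero, Matrix.cons_val_one, ι', map_sub, map_add, map_mul]
        linear_combination (-(algebraMap F (AlgebraicClosure F) ((g : (Fin 2 → F) ≃ₗ[F] (Fin 2 → F)) (Pi.single 0 1) 1) *
          algebraMap F (AlgebraicClosure F) ((h : (Fin 2 → F) ≃ₗ[F] (Fin 2 → F)) (Pi.single 0 1) 1))) * hμ }
  have hχ : Function.Injective χ := (injective_iff_map_eq_one χ).2 fun g hg => by
    obtain ⟨h0, h1⟩ := hindep _ _ hg
    refine Subtype.ext (LinearEquiv.ext fun v => ?_)
    rw [g.2.2 v]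
    ext i
    fin_cases i <;> simp [mulW_apply, h0, h1]
  have hcyc : IsCyclic R := isCyclic_of_subgroup_isDomain χ hχ
  have hcardR : Nat.card R = N := by
    rw [hN, ← card_binQ_one hab]
    refine Nat.card_eq_of_bijective (fun g => ⟨(g : (Fin 2 → F) ≃ₗ[F] (Fin 2 → F)) (Pi.single 0 1),
      by rw [g.2.1, binQ_single]⟩) ⟨fun g h e => ?_, fun w => ?_⟩
    · refine Subtype.ext (LinearEquiv.ext fun v => ?_)
      have e' := congrArg Subtype.val e
      simp only at e'
      rw [g.2.2 v, h.2.2 v, e']
    · let e := LinearEquiv.ofInjectiveEndo (mulW a b w.1)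
        (mulW_injective hab fun h => by simpa [h] using w.2)
      have he : e (Pi.single 0 1) = w.1 := by
        rw [LinearEquiv.coe_ofInjectiveEndo, mulW_apply]
        ext i; fin_cases i <;> simp
      exact ⟨⟨e, fun v => by rw [LinearEquiv.coe_ofInjectiveEndo, binQ_mulW, w.2, one_mul],
        fun v => by rw [he]; rfl⟩, Subtype.ext he⟩
  obtain ⟨ρ, hρ⟩ := hcyc.exists_generator
  have hρo : orderOf ρ = N := by rw [orderOf_eq_card_of_forall_mem_zpowers hρ, hcardR]
  set r := (ρ : (Fin 2 → F) ≃ₗ[F] (Fin 2 → F)) with hr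
  have hro : orderOf r = N := by rw [hr, Subgroup.orderOf_coe, hρo]
  obtain ⟨s, hs, hsv⟩ := exists_conj a b
  have hss : s * s = 1 := LinearEquiv.ext fun v => by
    rw [LinearEquiv.mul_apply, hsv, hsv]
    ext i; fin_cases i <;> simp [conjW_apply] <;> ring
  -- conjugation inverts rotations
  have hconj : s * r * s = r⁻¹ := by
    refine eq_inv_of_mul_eq_one_left (LinearEquiv.ext fun v => ?_)
    have hQ : binQ a b (r (Pi.single 0 1)) = 1 := by rw [ρ.2.1, binQ_single]
    rw [binQ_apply] at hQ
    rw [LinearEquiv.mul_apply, LinearEquiv.mul_apply, LinearEquiv.mul_apply, hsv, hsv,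
      ρ.2.2 (conjW a _), ρ.2.2 v]
    ext i
    fin_cases i <;> simp [conjW_apply, mulW_apply]
    · linear_combination v 0 * hQ
    · linear_combination v 1 * hQ
  have hNz : NeZero N := ⟨by omega⟩
  have hadd : ∀ i j : ZMod N, r ^ (i + j).val = r ^ i.val * r ^ j.val := fun i j => by
    rw [← pow_add, pow_eq_pow_iff_modEq, hro, ZMod.val_add]
    exact Nat.mod_modEq _ _
  have hneg : ∀ i : ZMod N, r ^ (-i).val = (r ^ i.val)⁻¹ := fun i =>
    eq_inv_of_mul_eq_one_left (by rw [← hadd, neg_add_cancel, ZMod.val_zero, pow_zero])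
  have hsinv : s⁻¹ = s := inv_eq_of_mul_eq_one_right hss
  have hswap : ∀ i : ZMod N, r ^ i.val * s = s * r ^ (-i).val := fun i => by
    rw [hneg, ← inv_pow, ← hconj, show s * r * s = s * r * s⁻¹ by rw [hsinv], conj_pow, hsinv,
      ← mul_assoc, ← mul_assoc, hss, one_mul]
  let f : DihedralGroup N → (Fin 2 → F) ≃ₗ[F] (Fin 2 → F)
    | .r i => r ^ i.val
    | .sr i => s * r ^ i.val
  have hf : ∀ x y, f (x * y) = f x * f y := by
    rintro (i | i) (j | j)
    · exact hadd i j
    · change s * r ^ (j - i).val = r ^ i.val * (s * r ^ j.val)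
      rw [← mul_assoc, hswap, mul_assoc, ← hadd]; congr 3; ring
    · change s * r ^ (i + j).val = s * r ^ i.val * r ^ j.val
      rw [hadd, mul_assoc]
    · change r ^ (j - i).val = s * r ^ i.val * (s * r ^ j.val)
      rw [mul_assoc s (r ^ i.val), ← mul_assoc (r ^ i.val), hswap, mul_assoc s, ← mul_assoc,
        hss, one_mul, ← hadd]
      congr 2; ring
  have hmem : ∀ x, f x ∈ isoG (binQ a b) := by
    rintro (i | i)
    · exact Subgroup.pow_mem _ ρ.2.1 _
    · exact Subgroup.mul_mem _ hs (Subgroup.pow_mem _ ρ.2.1 _)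
  let φ : DihedralGroup N →* isoG (binQ a b) :=
    MonoidHom.mk' (fun x => ⟨f x, hmem x⟩) fun x y => Subtype.ext (hf x y)
  have hφ : Function.Injective φ := by
    rw [injective_iff_map_eq_one]
    rintro (i | i) h
    · have h' : r ^ i.val = 1 := congrArg Subtype.val h
      have hd := orderOf_dvd_of_pow_eq_one h'
      rw [hro] at hd
      rw [DihedralGroup.one_def]
      congr 1
      exact (ZMod.val_eq_zero i).1 (Nat.eq_zero_of_dvd_of_lt hd (ZMod.val_lt i))
    · exfalso
      have h' : s * r ^ i.val = 1 := congrArg Subtype.val h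
      have hsR : s ∈ R := by
        rw [eq_inv_of_mul_eq_one_left h']
        exact Subgroup.inv_mem _ (Subgroup.pow_mem _ ρ.2 _)
      have h1 := congrFun (hsR.2 (Pi.single 1 1)) 0
      have h2 := congrFun (hsR.2 (Pi.single 1 1)) 1
      rw [hsv] at h1 h2
      simp [conjW_apply, hsv, mulW_apply] at h1 h2
      refine aniso_disc hab ?_
      linear_combination a * h1 + 2 * b * h2
  refine ⟨(MulEquiv.ofBijective φ ((Nat.bijective_iff_injective_and_card φ).2 ⟨hφ, ?_⟩)).symm⟩
  rw [DihedralGroup.nat_card, card_isoG_binQ hab]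

end Cfsg.Agent.Lib.Classical.Quad
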