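import Cfsg.Agent.Lib.Classical.UnitaryTorsion
import Cfsg.Agent.Lib.Classical.Unitary
import Cfsg.Agent.Lib.GLn.PGLTorsion

/-!
# Classes of elements of odd prime order `r ∣ q + 1` in `PGU_n(q)`

As for `PGL_n(q)`, with the scalars replaced by the group of norm one scalars.
-/

set_option autoImplicit false

namespace Cfsg.Agent.Lib.Classical.PGUTorsion

open Polynomial Matrix Cfsg.Agent.Lib.UnitaryConj Cfsg.Agent.Lib.GLn Cfsg.Agent.Lib.GLn.PGLTorsion

universe u

variable {K : Type u} [Field K] [Fintype K] {q n : ℕ} (hK : Fintype.card K = q ^ 2)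

/-- The norm one scalars. -/
def μ (K : Type u) [Field K] (q : ℕ) : Subgroup Kˣ := (powMonoidHom (q + 1) : Kˣ →* Kˣ).ker

theorem pow_mu (c : μ K q) : (c : Kˣ) ^ (q + 1) = 1 := c.2

include hK in
theorem scalar_mem (c : μ K q) : GeneralLinearGroup.scalar (Fin n) (c : Kˣ) ∈ Cfsg.GU n K q := by
  obtain ⟨g, hg, hgd⟩ := Cfsg.Agent.Lib.Classical.Herm.exists_diag hK (n := n) (fun _ => ((c : Kˣ) : K))
    fun _ => by rw [← Units.val_pow_eq_pow_val, pow_mu, Units.val_one]
  have : GeneralLinearGroup.scalar (Fin n) (c : Kˣ) = g := by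
    apply Units.ext
    rw [GeneralLinearGroup.coe_scalar, scalar_apply, hgd]
  rwa [this]

/-- Norm one scalars in `GU`. -/
noncomputable def scal : μ K q →* ↥(Cfsg.GU n K q) where
  toFun c := ⟨GeneralLinearGroup.scalar (Fin n) (c : Kˣ), scalar_mem hK c⟩
  map_one' := Subtype.ext (by simp)
  map_mul' a b := Subtype.ext (by simp)

theorem coe_scal (c : μ K q) :
    ((scal hK c : ↥(Cfsg.GU n K q)) : GL (Fin n) K) = GeneralLinearGroup.scalar (Fin n) (c : Kˣ) := rfl

theorem scal_commute (c : μ K q) (g : ↥(Cfsg.GU n K q)) : Commute (scal hK c) g :=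
  Subtype.ext (GeneralLinearGroup.scalar_commute (c : Kˣ) (g : GL (Fin n) K))

theorem scal_injective (hn : n ≠ 0) : Function.Injective (scal hK : μ K q → ↥(Cfsg.GU n K q)) := fun _ _ h =>
  Subtype.ext (scalar_injective hn (congrArg Subtype.val h))

theorem scal_mul_pow (c : μ K q) (g : ↥(Cfsg.GU n K q)) (m : ℕ) :
    (scal hK c * g) ^ m = scal hK (c ^ m) * g ^ m := by
  rw [map_pow]
  exact (scal_commute hK c g).mul_pow m

include hK in
/-- The centre of `GU` consists of the norm one scalars. -/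
theorem mem_center {g : ↥(Cfsg.GU n K q)} :
    g ∈ Subgroup.center ↥(Cfsg.GU n K q) ↔ ∃ c, scal hK c = g := by
  classical
  constructor
  · intro h
    rcases Nat.eq_zero_or_pos n with rfl | hn
    · exact ⟨1, Subtype.ext (Units.ext (Matrix.ext fun i => i.elim0))⟩
    set M : Matrix (Fin n) (Fin n) K := ((g : GL (Fin n) K) : Matrix (Fin n) (Fin n) K) with hM
    have hcomm : ∀ x : GL (Fin n) K, x ∈ Cfsg.GU n K q → (x : Matrix (Fin n) (Fin n) K) * M = M * x :=
      fun x hx => congrArg (fun w : ↥(Cfsg.GU n K q) => ((w : GL (Fin n) K) : Matrix (Fin n) (Fin n) K))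
        (Subgroup.mem_center_iff.1 h ⟨x, hx⟩)
    obtain ⟨ζ, hζ, hζ2⟩ := Cfsg.Agent.Lib.Classical.Herm.exists_primitive_norm_one hK
    have hζ1 : (ζ : K) ≠ 1 := fun h => hζ2 (Units.ext (by rw [Units.val_mul, h, one_mul, Units.val_one]))
    have hoff : ∀ i j, i ≠ j → M i j = 0 := fun i j hij => by
      obtain ⟨x, hx, hxd⟩ := Cfsg.Agent.Lib.Classical.Herm.exists_diag hK (n := n)
        (fun a => if a = i then (ζ : K) else 1) fun a => by
          split_ifs
          · rw [← Units.val_pow_eq_pow_val, hζ, Units.val_one]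
          · exact one_pow _
      have := Matrix.ext_iff.2 (hcomm x hx) i j
      rw [hxd, diagonal_mul, mul_diagonal, if_pos rfl, if_neg (Ne.symm hij), mul_one] at this
      exact (mul_left_eq_self₀.1 this).resolve_left hζ1
    have hne : ∀ i : Fin n, Cfsg.hermForm n K q (Pi.single i 1) (Pi.single i 1) = 1 := fun i => by
      rw [Cfsg.Agent.Lib.Classical.Herm.herm_single_right hK]; simp
    let i0 : Fin n := ⟨0, hn⟩
    have hdiag : M = diagonal fun _ => M i0 i0 := by
      ext i j
      rcases eq_or_ne i j with rfl | hij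
      · obtain ⟨x, hx, hxv⟩ := Cfsg.Agent.Lib.Classical.Herm.exists_GU_map hK (hne i0) (hne i)
        have := congrArg (fun A : Matrix (Fin n) (Fin n) K => A *ᵥ Pi.single i0 1) (hcomm x hx)
        simp only [← Matrix.mulVec_mulVec, hxv] at this
        have hcol : ∀ a, M *ᵥ Pi.single a 1 = M a a • Pi.single a 1 := fun a => by
          ext b
          rcases eq_or_ne b a with rfl | hba
          · simp
          · simp [hba, hoff b a hba]
        rw [hcol, hcol, Matrix.mulVec_smul, hxv] at this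
        have := congrFun this i
        simp only [Pi.smul_apply, Pi.single_eq_same, smul_eq_mul, mul_one] at this
        rw [diagonal_apply_eq, this]
      · rw [diagonal_apply_ne _ hij, hoff i j hij]
    have hl : M i0 i0 ^ (q + 1) = 1 := by
      have e : tstar hK M * M = 1 := (mem_GU_iff hK _).1 g.2
      have e' := Matrix.ext_iff.2 e i0 i0
      rw [hdiag, tstar, diagonal_map (map_zero _), diagonal_transpose, diagonal_mul_diagonal, diagonal_apply_eq,
        one_apply_eq] at e'
      rw [pow_succ]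
      exact e'
    have hl0 : M i0 i0 ≠ 0 := fun e => by rw [e, zero_pow (Nat.succ_ne_zero q)] at hl; exact zero_ne_one hl
    refine ⟨⟨Units.mk0 _ hl0, Units.ext hl⟩, Subtype.ext (Units.ext ?_)⟩
    show (GeneralLinearGroup.scalar (Fin n) (Units.mk0 _ hl0) : Matrix (Fin n) (Fin n) K) = M
    rw [GeneralLinearGroup.coe_scalar, scalar_apply, Units.val_mk0, ← hdiag]
  · rintro ⟨c, rfl⟩
    exact Subgroup.mem_center_iff.2 fun x => (scal_commute hK c x).eq.symm

include hK in
/-- Conjugacy in `PGU` is conjugacy up to a norm one scalar. -/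
theorem mk_eq_mk {g h : ↥(Cfsg.GU n K q)} :
    ConjClasses.mk (QuotientGroup.mk g : ↥(Cfsg.GU n K q) ⧸ Subgroup.center ↥(Cfsg.GU n K q)) =
        ConjClasses.mk (QuotientGroup.mk h) ↔ ∃ c : μ K q, IsConj g (scal hK c * h) := by
  rw [ConjClasses.mk_eq_mk_iff_isConj, isConj_iff]
  constructor
  · rintro ⟨x, hx⟩
    induction x using QuotientGroup.induction_on with | _ x =>
    rw [← QuotientGroup.mk_inv, ← QuotientGroup.mk_mul, ← QuotientGroup.mk_mul, eq_comm, QuotientGroup.eq,
      mem_center hK] at hx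
    obtain ⟨c, hc⟩ := hx
    refine ⟨c, isConj_iff.2 ⟨x, ?_⟩⟩
    rw [(scal_commute hK c h).eq, hc, mul_inv_cancel_left]
  · rintro ⟨c, hc⟩
    obtain ⟨x, hx⟩ := isConj_iff.1 hc
    refine ⟨x, ?_⟩
    rw [← QuotientGroup.mk_inv, ← QuotientGroup.mk_mul, ← QuotientGroup.mk_mul, eq_comm, QuotientGroup.eq, mem_center hK]
    exact ⟨c, by rw [hx, (scal_commute hK c h).eq, inv_mul_cancel_left]⟩

include hK in
theorem orderOf_mk_eq {g : ↥(Cfsg.GU n K q)} {r : ℕ} (hr : r.Prime) :
    orderOf (QuotientGroup.mk g : ↥(Cfsg.GU n K q) ⧸ Subgroup.center ↥(Cfsg.GU n K q)) = r ↔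
      (∃ c, scal hK c = g ^ r) ∧ g ∉ Subgroup.center ↥(Cfsg.GU n K q) := by
  haveI : Fact r.Prime := ⟨hr⟩
  rw [orderOf_eq_prime_iff, ← QuotientGroup.mk_pow, QuotientGroup.eq_one_iff, Ne, QuotientGroup.eq_one_iff,
    mem_center hK (g := g ^ r)]

theorem dual_X_pow_sub_C {r : ℕ} (hr : r ≠ 0) (a : μ K q) :
    UnitarySemisimpleClasses.dual hK (X ^ r - C ((a : Kˣ) : K)) = X ^ r - C ((a : Kˣ) : K) := by
  set c : K := ((a : Kˣ) : K) with hc
  have hd : (X ^ r - C c : K[X]).natDegree = r := natDegree_X_pow_sub_C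
  have hcq : c * qHom hK c = 1 := by
    show c * c ^ q = 1
    rw [← pow_succ', hc, ← Units.val_pow_eq_pow_val, pow_mu, Units.val_one]
  have h0 : (X ^ r - C c : K[X]).coeff 0 = -c := by simp [Ne.symm hr]
  have hinv : (qHom hK (-c))⁻¹ = -c := by
    rw [map_neg, inv_neg, inv_eq_of_mul_eq_one_left hcq]
  ext i
  by_cases hi : i ≤ r
  · rw [UnitarySemisimpleClasses.coeff_dual hK _ (hd.symm ▸ hi), h0, hinv, hd]
    simp only [coeff_sub, coeff_X_pow, coeff_C]
    rcases Nat.eq_zero_or_pos i with rfl | hi0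
    · simp [hr, Ne.symm hr]
    rcases eq_or_lt_of_le hi with rfl | hlt
    · simp [hr, Ne.symm hr, map_neg, hcq]
    · simp [show r - i ≠ r by omega, show r - i ≠ 0 by omega, show i ≠ r by omega, show i ≠ 0 by omega]
  · rw [coeff_eq_zero_of_natDegree_lt (by
        rw [UnitarySemisimpleClasses.natDegree_dual hK (by rw [h0]; exact neg_ne_zero.2 (Units.ne_zero _)), hd]; omega),
      coeff_eq_zero_of_natDegree_lt (by rw [hd]; omega)]

include hK in
/-- Classes of elements of order `r` in `PGU_n(q)` for odd `r ∣ q + 1`. -/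
theorem card_classes {r : ℕ} [Fact r.Prime] (hn : 2 ≤ n) (hr2 : r ≠ 2) (hrq : r ∣ q + 1) :
    Nat.card {D : ConjClasses (↥(Cfsg.GU n K q) ⧸ Subgroup.center ↥(Cfsg.GU n K q)) //
        ∃ g : ↥(Cfsg.GU n K q) ⧸ Subgroup.center ↥(Cfsg.GU n K q), ConjClasses.mk g = D ∧ orderOf g = r} =
      (Nat.choose (n + r - 1) (r - 1) - r - (if r ∣ n then 1 else 0)) / r + r * (if r ∣ n then 1 else 0) := by
  classical
  have hr : r.Prime := Fact.out
  have hn0 : n ≠ 0 := by omega
  obtain ⟨p, f, hp, hchar, hf1, hf⟩ := q_eq_pow hK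
  haveI := hchar
  haveI : Fact p.Prime := ⟨hp⟩
  have hpq : ∀ d, d ∣ q + 1 → d.Coprime p := fun d hd => by
    refine Nat.Coprime.of_dvd_left hd ((hp.coprime_iff_not_dvd).2 fun h => ?_).symm
    exact hp.ne_one (Nat.dvd_one.1 ((Nat.dvd_add_right (hf ▸ dvd_pow_self p (by omega))).1 h))
  haveI : IsCyclic (μ K q) := inferInstance
  have hμc : Nat.card (μ K q) = q + 1 := Cfsg.Agent.Lib.Classical.Herm.card_norm_one hK
  obtain ⟨ω, hω⟩ := IsCyclic.exists_monoid_generator (α := μ K q)
  have hωo : orderOf ω = q + 1 := by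
    rw [orderOf_eq_card_of_forall_mem_zpowers fun x => by
        obtain ⟨k, hk⟩ := hω x
        exact ⟨(k : ℤ), by rw [← hk]; exact zpow_natCast ω k⟩, hμc]
  set ζμ : μ K q := ω ^ ((q + 1) / r) with hζdef
  have hζμ : orderOf ζμ = r := by
    rw [hζdef, orderOf_pow_of_dvd (Nat.div_ne_zero_iff.2 ⟨hr.ne_zero, Nat.le_of_dvd (by omega) hrq⟩)
      (by rw [hωo]; exact Nat.div_dvd_of_dvd hrq), hωo, Nat.div_div_self hrq (by omega)]
  set ζ : Kˣ := (ζμ : Kˣ) with hζval
  have hζ : orderOf ζ = r := by rw [hζval, Subgroup.orderOf_coe, hζμ]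
  have hzμ : ∀ k : ZMod r, z ζ k ∈ μ K q := fun k => by rw [z]; exact pow_mem ζμ.2 _
  let zμ : ZMod r → μ K q := fun k => ⟨z ζ k, hzμ k⟩
  have hcopr : r.Coprime p := hpq r hrq
  have hcop : ∀ (a : ↥(Cfsg.GU n K q)) (c : μ K q), a ^ r = scal hK c → (orderOf a).Coprime p := by
    intro a c h
    refine Nat.Coprime.of_dvd_left (orderOf_dvd_of_pow_eq_one (n := r * orderOf c) ?_) ?_
    · rw [pow_mul, h, ← map_pow, pow_orderOf_eq_one, map_one]
    · exact Nat.Coprime.mul_left hcopr (hpq _ (hμc ▸ orderOf_dvd_natCard c))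
  have hconj : ∀ (a b : ↥(Cfsg.GU n K q)) (c d : μ K q), a ^ r = scal hK c → b ^ r = scal hK d →
      ((a : GL (Fin n) K) : Matrix (Fin n) (Fin n) K).charpoly =
        ((b : GL (Fin n) K) : Matrix (Fin n) (Fin n) K).charpoly → IsConj a b := fun a b c d ha hb hc =>
    UnitaryTorsion.isConj_GU hK p a b (hcop a c ha) (hcop b d hb) hc
  have hrepU : ∀ e : Fin n → ZMod r, rep ζ e ∈ Cfsg.GU n K q := fun e => by
    obtain ⟨g, hg, hgd⟩ := Cfsg.Agent.Lib.Classical.Herm.exists_diag hK (n := n) (fun i => (z ζ (e i) : K))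
      fun i => by rw [← Units.val_pow_eq_pow_val, show z ζ (e i) ^ (q + 1) = 1 from hzμ (e i), Units.val_one]
    have : rep ζ e = g := Units.ext (by rw [rep, coe_dgl, hgd])
    rwa [this]
  let repU : (Fin n → ZMod r) → ↥(Cfsg.GU n K q) := fun e => ⟨rep ζ e, hrepU e⟩
  have repU_pow : ∀ e, repU e ^ r = 1 := fun e => Subtype.ext (rep_pow hζ e)
  have scal_repU : ∀ j e, scal hK (zμ j) * repU e = repU fun i => e i + j := fun j e =>
    Subtype.ext (scalar_mul_rep hζ j e)
  -- multisets of eigenvalues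
  let sh : ZMod r → Sym (ZMod r) n → Sym (ZMod r) n := fun j s => s.map (· + j)
  have hsh : ∀ j k s, sh j (sh k s) = sh (k + j) s := fun j k s => by
    simp only [sh, Sym.map_map, Function.comp_def, add_assoc]
  have hd : ∀ s : Sym (ZMod r) n, ∃ d : Fin n → ZMod r, Finset.univ.val.map d = (s : Multiset (ZMod r)) := by
    intro s
    obtain ⟨l, hl⟩ := Quot.exists_rep (s : Multiset (ZMod r))
    have hlen : l.length = n := by rw [← s.2]; exact congrArg Multiset.card hl
    subst hlen
    exact ⟨l.get, by rw [Fin.univ_val_map, List.ofFn_get]; exact hl⟩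
  choose d hd using hd
  let g : Sym (ZMod r) n → ↥(Cfsg.GU n K q) := fun s => repU (d s)
  let Ψ : Sym (ZMod r) n → ConjClasses (↥(Cfsg.GU n K q) ⧸ Subgroup.center ↥(Cfsg.GU n K q)) :=
    fun s => ConjClasses.mk (QuotientGroup.mk (g s))
  have hgc : ∀ (s : Sym (ZMod r) n) (e : Fin n → ZMod r), Finset.univ.val.map e = (s : Multiset (ZMod r)) →
      IsConj (g s) (repU e) := fun s e he =>
    hconj _ _ 1 1 (by rw [repU_pow, map_one]) (by rw [repU_pow, map_one])
      (by simp only [g, repU, charpoly_rep, hd, he])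
  have hΨ : ∀ s t, Ψ s = Ψ t ↔ ∃ j, sh j t = s := by
    intro s t
    simp only [Ψ]
    rw [mk_eq_mk hK]
    constructor
    · rintro ⟨c, hc⟩
      have hc1 : c ^ r = 1 := scal_injective hK hn0 (by
        have := hc.pow r
        rw [scal_mul_pow, repU_pow, repU_pow, mul_one, isConj_one_right] at this
        rw [map_one]; exact this)
      obtain ⟨j, hj⟩ := exists_z hζ (c := (c : Kˣ)) (congrArg Subtype.val hc1)
      obtain rfl : zμ j = c := Subtype.ext hj
      rw [scal_repU] at hc
      refine ⟨j, Sym.coe_injective ?_⟩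
      have := map_eq_of_charpoly hζ (TorsionClasses.charpoly_isConj ((Cfsg.GU n K q).subtype.map_isConj hc))
      rw [hd] at this
      rw [this, Sym.coe_map, ← hd t, Multiset.map_map]
      rfl
    · rintro ⟨j, rfl⟩
      refine ⟨zμ j, ?_⟩
      rw [scal_repU]
      exact hgc _ _ (by rw [Sym.coe_map, ← hd t, Multiset.map_map]; rfl)
  have hscal : ∀ s, g s ∈ Subgroup.center ↥(Cfsg.GU n K q) ↔ ∃ k, Sym.replicate n k = s := by
    intro s
    constructor
    · intro h
      obtain ⟨c, hc⟩ := (mem_center hK).1 h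
      have hi : ∀ i, z ζ (d s i) = (c : Kˣ) := fun i => by
        have h' : (GeneralLinearGroup.scalar (Fin n) (c : Kˣ) : Matrix (Fin n) (Fin n) K) = ((g s : GL (Fin n) K) : Matrix (Fin n) (Fin n) K) := by rw [← hc]; rfl
        have := Matrix.ext_iff.2 h' i i
        simp only [g, repU, rep, coe_dgl, GeneralLinearGroup.coe_scalar, scalar_apply, diagonal_apply_eq] at this
        exact Units.ext this.symm
      refine ⟨d s ⟨0, by omega⟩, Sym.coe_injective ?_⟩
      rw [Sym.coe_replicate, ← hd s, eq_comm, Multiset.eq_replicate]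
      exact ⟨by simp, fun b hb => by
        obtain ⟨i, -, rfl⟩ := Multiset.mem_map.1 hb
        exact z_injective hζ ((hi i).trans (hi _).symm)⟩
    · rintro ⟨k, rfl⟩
      rw [mem_center hK]
      refine ⟨zμ k, Subtype.ext ?_⟩
      show GeneralLinearGroup.scalar (Fin n) (z ζ k) = rep ζ (d (Sym.replicate n k))
      rw [← dgl_const]
      refine congrArg _ (funext fun i => ?_)
      have : d (Sym.replicate n k) i ∈ (Sym.replicate n k : Multiset (ZMod r)) := by
        rw [← hd]; exact Multiset.mem_map_of_mem _ (Finset.mem_univ i)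
      rw [Multiset.eq_of_mem_replicate this]
  -- shift invariant multisets
  have hfix : ∀ j s, j ≠ 0 → sh j s = s → sh 1 s = s := by
    intro j s hj h
    have : ∀ m : ℕ, sh (m • j) s = s := fun m => by
      induction m with
      | zero => simp [sh]
      | succ m ih => rw [succ_nsmul, ← hsh, ih, h]
    have := this (j⁻¹).val
    rwa [nsmul_eq_mul, ZMod.natCast_zmod_val, inv_mul_cancel₀ hj] at this
  set Fix := (Finset.univ : Finset (Sym (ZMod r) n)).filter fun s => sh 1 s = s with hFix
  set Sc := (Finset.univ : Finset (Sym (ZMod r) n)).filter fun s => ∃ k, Sym.replicate n k = s with hSc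
  set W := (Finset.univ : Finset (Sym (ZMod r) n)).filter fun s => sh 1 s ≠ s ∧ ¬ ∃ k, Sym.replicate n k = s with hW
  have hFc : Fix.card = if r ∣ n then 1 else 0 := by
    have hcount : ∀ s ∈ Fix, ∀ k, Multiset.count k (s : Multiset (ZMod r)) * r = n := by
      intro s hs k
      rw [hFix, Finset.mem_filter] at hs
      have h1 : ∀ a, Multiset.count (a + 1) (s : Multiset (ZMod r)) = Multiset.count a (s : Multiset (ZMod r)) := fun a => by
        conv_lhs => rw [← hs.2, Sym.coe_map]
        exact Multiset.count_map_eq_count' _ _ (add_left_injective (1 : ZMod r)) a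
      have h2 : ∀ m : ℕ, Multiset.count (m : ZMod r) (s : Multiset (ZMod r)) = Multiset.count 0 (s : Multiset (ZMod r)) := fun m => by
        induction m with
        | zero => simp
        | succ m ih => rw [Nat.cast_succ, h1, ih]
      have h3 : ∀ a, Multiset.count a (s : Multiset (ZMod r)) = Multiset.count 0 (s : Multiset (ZMod r)) := fun a => by
        rw [← ZMod.natCast_zmod_val a, h2]
      have h4 := Multiset.sum_count_eq_card (s := (Finset.univ : Finset (ZMod r))) (m := (s : Multiset (ZMod r)))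
        (fun a _ => Finset.mem_univ a)
      rw [Finset.sum_congr rfl (fun a _ => h3 a), Finset.sum_const, Finset.card_univ, ZMod.card, smul_eq_mul] at h4
      rw [h3, mul_comm, h4]
      exact s.2
    split_ifs with hdv
    · obtain ⟨c, hc⟩ := hdv
      rw [Finset.card_eq_one]
      let U : Sym (ZMod r) n := ⟨c • Finset.univ.val, by simp [hc, mul_comm]⟩
      refine ⟨U, Finset.eq_singleton_iff_unique_mem.2 ⟨?_, fun s hs => Sym.coe_injective (Multiset.ext.2 fun k => ?_)⟩⟩
      · rw [hFix, Finset.mem_filter]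
        refine ⟨Finset.mem_univ _, Sym.coe_injective ?_⟩
        change Multiset.map (· + 1) (c • Finset.univ.val) = c • Finset.univ.val
        rw [Multiset.map_nsmul, show (fun x : ZMod r => x + 1) = Equiv.addRight 1 from rfl,
          Multiset.map_univ_val_equiv]
      · have h : r * Multiset.count k (s : Multiset (ZMod r)) = r * c := by
          rw [mul_comm]; exact (hcount s hs k).trans hc
        rw [Nat.eq_of_mul_eq_mul_left hr.pos h]
        simp [U, Multiset.count_nsmul]
    · rw [Finset.card_eq_zero, Finset.eq_empty_iff_forall_notMem]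
      exact fun s hs => hdv ⟨_, ((mul_comm r _).trans (hcount s hs 0)).symm⟩
  have hScc : Sc.card = r := by
    rw [show Sc = Finset.univ.image (Sym.replicate n) by ext s; simp [hSc],
      Finset.card_image_of_injective _ (fun a b h => ?_), Finset.card_univ, ZMod.card]
    exact (Multiset.replicate_right_inj hn0).1 (congrArg Sym.toMultiset h)
  have hFSc : ∀ s ∈ Fix, ¬ ∃ k, Sym.replicate n k = s := by
    rintro _ hs ⟨k, rfl⟩
    rw [hFix, Finset.mem_filter] at hs
    have := congrArg Sym.toMultiset hs.2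
    simp only [sh, Sym.coe_map, Sym.coe_replicate, Multiset.map_replicate] at this
    exact one_ne_zero (α := ZMod r) (by simpa using (Multiset.replicate_right_inj hn0).1 this)
  have hN : Nat.choose (n + r - 1) (r - 1) = W.card + Fix.card + Sc.card := by
    have hu : (Finset.univ : Finset (Sym (ZMod r) n)) = W ∪ Fix ∪ Sc := by
      ext s
      simp only [hW, hFix, hSc, Finset.mem_union, Finset.mem_filter, Finset.mem_univ, true_and]
      tauto
    rw [← Finset.card_union_of_disjoint (Finset.disjoint_left.2 fun s h1 h2 => by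
        simp only [hW, hFix, Finset.mem_filter] at h1 h2; exact h1.2.1 h2.2),
      ← Finset.card_union_of_disjoint (Finset.disjoint_left.2 fun s h1 h2 => by
        simp only [hSc, Finset.mem_filter] at h2
        rcases Finset.mem_union.1 h1 with h | h
        · exact (Finset.mem_filter.1 h).2.2 h2.2
        · exact hFSc s h h2.2),
      ← hu, Finset.card_univ, Sym.card_sym_eq_choose, ZMod.card, add_comm r n]
    exact Nat.choose_symm_of_eq_add (by have := hr.pos; omega)
  have hWc : W.card = r * (W.image Ψ).card := by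
    rw [Finset.card_eq_sum_card_image Ψ W, Finset.sum_congr rfl (g := fun _ => r), Finset.sum_const, smul_eq_mul,
      mul_comm]
    intro b hb
    obtain ⟨t, ht, rfl⟩ := Finset.mem_image.1 hb
    rw [hW, Finset.mem_filter] at ht
    have : W.filter (fun a => Ψ a = Ψ t) = Finset.univ.image fun j => sh j t := by
      ext s
      rw [Finset.mem_filter, Finset.mem_image, hΨ]
      refine ⟨fun ⟨_, j, hj⟩ => ⟨j, Finset.mem_univ _, hj⟩, fun ⟨j, _, hj⟩ => ⟨?_, j, hj⟩⟩
      subst hj
      rw [hW, Finset.mem_filter]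
      refine ⟨Finset.mem_univ _, fun e => ht.2.1 ?_, fun ⟨k, hk⟩ => ht.2.2 ⟨k - j, ?_⟩⟩
      · have h := congrArg (sh (-j)) e
        rw [hsh, hsh, hsh] at h
        simpa [sh] using h
      · have h := congrArg (sh (-j)) hk
        rw [hsh, add_neg_cancel] at h
        simp only [sh, add_zero, Sym.map_id'] at h
        rw [← h]
        refine Sym.coe_injective ?_
        simp [Sym.coe_map, Sym.coe_replicate, sub_eq_add_neg, Multiset.map_replicate]
    rw [this, Finset.card_image_of_injective _ fun i j hij => ?_, Finset.card_univ, ZMod.card]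
    by_contra hne
    have h : sh (i - j) t = t := by
      have := congrArg (sh (-j)) (show sh i t = sh j t from hij)
      rw [hsh, hsh, add_neg_cancel] at this
      simpa [sh, sub_eq_add_neg] using this
    exact ht.2.1 (hfix _ t (sub_ne_zero.2 hne) h)
  -- the classes without a lift of order `r`
  have hnp : ∀ j : ℕ, ¬ r ∣ j → ∀ c : Kˣ, ((ω ^ j : μ K q) : Kˣ) ≠ c ^ r := by
    intro j hj c h
    have h1 : c ^ (r * (q + 1)) = 1 := by rw [pow_mul, ← h]; exact pow_mu _
    have h2 : c ^ ((q - 1) * (q + 1)) = 1 := by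
      rw [show (q - 1) * (q + 1) = Fintype.card Kˣ by
        rw [Fintype.card_units, hK, mul_comm, ← Nat.sq_sub_sq, one_pow]]
      exact pow_card_eq_one
    have h3 : Nat.gcd r (q - 1) = 1 := hr.coprime_iff_not_dvd.2 fun hd => by
      have h4 := Nat.dvd_sub hrq hd
      have hq1 : 1 ≤ q := by rw [hf]; exact Nat.one_le_pow _ _ hp.pos
      rw [show q + 1 - (q - 1) = 2 by omega] at h4
      exact hr2 ((Nat.prime_dvd_prime_iff_eq hr Nat.prime_two).1 h4)
    have hc := pow_gcd_eq_one.2 ⟨h1, h2⟩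
    rw [Nat.gcd_mul_right, h3, one_mul] at hc
    obtain ⟨k, hk⟩ := hω ⟨c, hc⟩
    have h5 : ω ^ j = (ω ^ k) ^ r := Subtype.ext (by
      rw [show ω ^ k = (⟨c, hc⟩ : μ K q) from hk]; exact h)
    rw [← pow_mul, pow_eq_pow_iff_modEq] at h5
    exact hj (Nat.modEq_zero_iff_dvd.1 ((Nat.ModEq.of_dvd (hωo ▸ hrq) h5).trans
      (Nat.modEq_zero_iff_dvd.2 (dvd_mul_left _ _))))
  have hirr : ∀ j : ℕ, ¬ r ∣ j → Irreducible (X ^ r - C (((ω ^ j : μ K q) : Kˣ) : K)) := fun j hj => by
    refine X_pow_sub_C_irreducible_of_prime hr fun b hb => ?_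
    have hb0 : b ≠ 0 := fun e => Units.ne_zero _ (by rw [← hb, e, zero_pow hr.ne_zero])
    exact hnp j hj (Units.mk0 b hb0) (Units.ext (by simp [hb]))
  have hgB : ∀ j : ℕ, r ∣ n → ¬ r ∣ j → ∃ h : ↥(Cfsg.GU n K q), h ^ r = scal hK (ω ^ j) ∧
      ((h : GL (Fin n) K) : Matrix (Fin n) (Fin n) K).charpoly = (X ^ r - C (((ω ^ j : μ K q) : Kˣ) : K)) ^ (n / r) := by
    intro j hdv hj
    set P : K[X] := (X ^ r - C (((ω ^ j : μ K q) : Kˣ) : K)) ^ (n / r) with hP
    have hPm : P.Monic := (monic_X_pow_sub_C _ hr.ne_zero).pow _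
    have hPd : P.natDegree = n := by rw [hP, natDegree_pow, natDegree_X_pow_sub_C, Nat.div_mul_cancel hdv]
    have hP0 : P.coeff 0 ≠ 0 := by rw [hP, coeff_zero_eq_eval_zero, eval_pow]; simp [hr.ne_zero]
    obtain ⟨h, hho, hhc⟩ := UnitaryTorsion.exists_gu hK p P hPm hPd hP0
      (by rw [hP, UnitaryTorsion.dual_pow, dual_X_pow_sub_C hK hr.ne_zero])
    obtain ⟨g', hg', hgc', hgQ⟩ := TorsionClasses.exists_gl (n := n) p P _ (n / r) hPm hPd hP0 dvd_rfl
    have hg'r : g' ^ r = GeneralLinearGroup.scalar (Fin n) ((ω ^ j : μ K q) : Kˣ) := by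
      refine Units.ext ?_
      rw [map_sub, map_pow, aeval_X, aeval_C, sub_eq_zero] at hgQ
      rw [Units.val_pow_eq_pow_val, hgQ, GeneralLinearGroup.coe_scalar]
      rfl
    refine ⟨h, Subtype.ext ?_, hhc⟩
    obtain ⟨x, hx⟩ := isConj_iff.1 (SemisimpleCharpoly.isConj_gl p g' (h : GL (Fin n) K) hg'
      (by rwa [Subgroup.orderOf_coe]) (hgc'.trans hhc.symm))
    rw [SubmonoidClass.coe_pow, ← hx, conj_pow, hg'r, ← GeneralLinearGroup.scalar_commute, mul_inv_cancel_right]
    rfl
  choose! gB hgB1 hgB2 using hgB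
  let B : Finset (ConjClasses (↥(Cfsg.GU n K q) ⧸ Subgroup.center ↥(Cfsg.GU n K q))) :=
    if r ∣ n then (Finset.Icc 1 (r - 1)).image fun j => ConjClasses.mk (QuotientGroup.mk (gB j)) else ∅
  have hIcc : ∀ j ∈ Finset.Icc 1 (r - 1), ¬ r ∣ j := fun j hj hd => by
    have := Finset.mem_Icc.1 hj
    have := Nat.le_of_dvd (by omega) hd
    have := hr.pos
    omega
  have hBc : B.card = (r - 1) * (if r ∣ n then 1 else 0) := by
    simp only [B]
    split_ifs with hdv
    · rw [Finset.card_image_of_injOn, Nat.card_Icc, mul_one]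
      · omega
      intro i hi j hj e
      obtain ⟨c, hc⟩ := (mk_eq_mk hK).1 e
      have h := hc.pow r
      rw [scal_mul_pow, hgB1 i hdv (hIcc i hi), hgB1 j hdv (hIcc j hj), ← map_mul] at h
      obtain ⟨x, hx⟩ := isConj_iff.1 h
      rw [← (scal_commute hK _ x).eq, mul_inv_cancel_right] at hx
      have hx' := scal_injective hK hn0 hx
      obtain ⟨m, rfl⟩ := hω c
      change ω ^ i = (ω ^ m) ^ r * ω ^ j at hx'
      rw [← pow_mul, ← pow_add, pow_eq_pow_iff_modEq] at hx'
      have := Nat.ModEq.of_dvd (hωo ▸ hrq) hx'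
      rw [Nat.ModEq, Nat.mul_add_mod', Nat.mod_eq_of_lt, Nat.mod_eq_of_lt] at this
      · exact this
      · have := Finset.mem_Icc.1 hj; omega
      · have := Finset.mem_Icc.1 hi; omega
    · simp
  have hmain : {D : ConjClasses (↥(Cfsg.GU n K q) ⧸ Subgroup.center ↥(Cfsg.GU n K q)) |
      ∃ g : ↥(Cfsg.GU n K q) ⧸ Subgroup.center ↥(Cfsg.GU n K q), ConjClasses.mk g = D ∧ orderOf g = r} =
      ↑(W.image Ψ ∪ Fix.image Ψ ∪ B) := by
    ext D
    simp only [Set.mem_ofPred_eq, Finset.coe_union, Finset.coe_image, Set.mem_union, Set.mem_image, Finset.mem_coe]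
    constructor
    · rintro ⟨x, rfl, hx⟩
      induction x using QuotientGroup.induction_on with | _ x =>
      obtain ⟨⟨l, hl⟩, hxc⟩ := (orderOf_mk_eq hK hr).1 hx
      obtain ⟨m, rfl⟩ := hω l
      change scal hK (ω ^ m) = x ^ r at hl
      set j := m % r with hj
      set h := scal hK (ω ^ (m / r))⁻¹ * x with hh
      have hxh : ConjClasses.mk (QuotientGroup.mk x : ↥(Cfsg.GU n K q) ⧸ Subgroup.center ↥(Cfsg.GU n K q)) =
          ConjClasses.mk (QuotientGroup.mk h) :=
        (mk_eq_mk hK).2 ⟨ω ^ (m / r), by rw [hh, ← mul_assoc, ← map_mul, mul_inv_cancel, map_one, one_mul]⟩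
      have hhc : h ∉ Subgroup.center ↥(Cfsg.GU n K q) := fun hc => hxc (by
        have := mul_mem ((mem_center hK).2 ⟨ω ^ (m / r), rfl⟩) hc
        rwa [hh, ← mul_assoc, ← map_mul, mul_inv_cancel, map_one, one_mul] at this)
      have hhr : h ^ r = scal hK (ω ^ j) := by
        rw [hh, scal_mul_pow, ← hl, ← map_mul]
        congr 1
        rw [inv_pow, ← pow_mul, inv_mul_eq_iff_eq_mul, ← pow_add, mul_comm, hj, Nat.div_add_mod]
      have hQ : aeval ((h : GL (Fin n) K) : Matrix (Fin n) (Fin n) K) (X ^ r - C (((ω ^ j : μ K q) : Kˣ) : K)) = 0 := by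
        rw [map_sub, map_pow, aeval_X, aeval_C, ← Units.val_pow_eq_pow_val, ← SubmonoidClass.coe_pow, hhr, sub_eq_zero]
        rfl
      have hhG : (orderOf (h : GL (Fin n) K)).Coprime p := by rw [Subgroup.orderOf_coe]; exact hcop h _ hhr
      by_cases hj0 : j = 0
      · rw [hj0, pow_zero, OneMemClass.coe_one, Units.val_one, C_1] at hQ
        obtain ⟨a, ha⟩ := TorsionClasses.exists_eq_prod (fun k : ZMod r => X - C (z ζ k : K))
          (fun a b e => z_injective hζ (Units.ext (by simpa using e)))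
          ((h : GL (Fin n) K) : Matrix (Fin n) (Fin n) K).charpoly (charpoly_monic _) (fun q hq hqm hqd => by
            have := TorsionClasses.irreducible_dvd p (h : GL (Fin n) K) hhG hQ hqm hq hqd
            rw [← prod_z hζ] at this
            obtain ⟨k, -, hk⟩ := hq.prime.exists_mem_finset_dvd this
            exact ⟨k, eq_of_monic_of_associated (monic_X_sub_C _) hqm (hq.associated_of_dvd (irreducible_X_sub_C _) hk).symm⟩)
        have hsum : (∑ k : ZMod r, Multiset.replicate (a k) k).card = n := by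
          have := congrArg natDegree ha
          rw [charpoly_natDegree_eq_dim, Fintype.card_fin, natDegree_prod _ _ fun k _ => pow_ne_zero _ (X_sub_C_ne_zero _)] at this
          simp only [natDegree_pow, natDegree_X_sub_C, mul_one] at this
          rw [this]
          simp
        let s : Sym (ZMod r) n := ⟨_, hsum⟩
        have hcon : IsConj h (g s) := by
          refine hconj _ _ _ 1 hhr (by rw [repU_pow, map_one]) ?_
          simp only [g, repU]
          rw [charpoly_rep, hd, ha]
          change _ = (Multiset.map _ (∑ k : ZMod r, Multiset.replicate (a k) k)).prod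
          rw [← Multiset.coe_mapAddMonoidHom, map_sum, Multiset.prod_sum]
          exact Finset.prod_congr rfl fun k _ => by simp [Multiset.map_replicate]
        have hs : ConjClasses.mk (QuotientGroup.mk x : ↥(Cfsg.GU n K q) ⧸ Subgroup.center ↥(Cfsg.GU n K q)) = Ψ s :=
          hxh.trans ((mk_eq_mk hK).2 ⟨1, by rw [map_one, one_mul]; exact hcon⟩)
        have hns : ¬ ∃ k, Sym.replicate n k = s := fun hk => hhc (by
          obtain ⟨y, hy⟩ := isConj_iff.1 hcon
          have hg := (hscal s).2 hk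
          rw [← hy] at hg
          have := (inferInstance : (Subgroup.center ↥(Cfsg.GU n K q)).Normal).conj_mem _ hg y⁻¹
          simpa [mul_assoc] using this)
        by_cases hs1 : sh 1 s = s
        · exact Or.inl (Or.inr ⟨s, by rw [hFix, Finset.mem_filter]; exact ⟨Finset.mem_univ _, hs1⟩, hs.symm⟩)
        · exact Or.inl (Or.inl ⟨s, by rw [hW, Finset.mem_filter]; exact ⟨Finset.mem_univ _, hs1, hns⟩, hs.symm⟩)
      · have hjr : ¬ r ∣ j := fun hd => hj0 (Nat.eq_zero_of_dvd_of_lt hd (Nat.mod_lt _ hr.pos))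
        obtain ⟨a, ha⟩ := TorsionClasses.exists_eq_prod (fun _ : Unit => X ^ r - C ((ω ^ j : Kˣ) : K))
          (fun _ _ _ => rfl) ((h : GL (Fin n) K) : Matrix (Fin n) (Fin n) K).charpoly (charpoly_monic _) (fun q hq hqm hqd =>
            ⟨(), eq_of_monic_of_associated (monic_X_pow_sub_C _ hr.ne_zero) hqm
              (hq.associated_of_dvd (hirr j hjr) (TorsionClasses.irreducible_dvd p (h : GL (Fin n) K) hhG hQ hqm hq hqd)).symm⟩)
        rw [Fintype.prod_unique] at ha
        have hna : a () * r = n := by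
          have := congrArg natDegree ha
          rw [charpoly_natDegree_eq_dim, Fintype.card_fin, natDegree_pow, natDegree_X_pow_sub_C] at this
          exact this.symm
        have hdv : r ∣ n := ⟨a (), by rw [mul_comm]; exact hna.symm⟩
        refine Or.inr ?_
        simp only [B, if_pos hdv, Finset.mem_image, Finset.mem_Icc]
        refine ⟨j, ⟨by omega, by have := Nat.mod_lt m hr.pos; omega⟩, (hxh.trans ((mk_eq_mk hK).2 ⟨1, ?_⟩)).symm⟩
        rw [map_one, one_mul]
        refine hconj _ _ _ _ hhr (hgB1 j hdv hjr) ?_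
        rw [hgB2 j hdv hjr, ha]
        congr 1
        rw [← hna, Nat.mul_div_cancel _ hr.pos]
    · have hsplit : ∀ s, (¬ ∃ k, Sym.replicate n k = s) → ∀ D, Ψ s = D →
          ∃ x : ↥(Cfsg.GU n K q) ⧸ Subgroup.center ↥(Cfsg.GU n K q), ConjClasses.mk x = D ∧ orderOf x = r := by
        intro s hs D e
        exact ⟨QuotientGroup.mk (g s), e, (orderOf_mk_eq hK hr).2 ⟨⟨1, by simp only [g, map_one, repU_pow]⟩, fun h => hs ((hscal s).1 h)⟩⟩
      rintro ((⟨s, hs, e⟩ | ⟨s, hs, e⟩) | h)
      · exact hsplit s (Finset.mem_filter.1 (hW ▸ hs)).2.2 D e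
      · exact hsplit s (hFSc s hs) D e
      · simp only [B] at h
        split_ifs at h with hdv
        · obtain ⟨j, hj, rfl⟩ := Finset.mem_image.1 h
          refine ⟨_, rfl, (orderOf_mk_eq hK hr).2 ⟨⟨_, (hgB1 j hdv (hIcc j hj)).symm⟩, fun hc => ?_⟩⟩
          obtain ⟨c, hc⟩ := (mem_center hK).1 hc
          have := hgB1 j hdv (hIcc j hj)
          rw [← hc, ← map_pow] at this
          exact hnp j (hIcc j hj) c (congrArg Subtype.val (scal_injective hK hn0 this).symm)
        · simp at h
  rw [show Nat.card {D : ConjClasses (↥(Cfsg.GU n K q) ⧸ Subgroup.center ↥(Cfsg.GU n K q)) //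
      ∃ g : ↥(Cfsg.GU n K q) ⧸ Subgroup.center ↥(Cfsg.GU n K q), ConjClasses.mk g = D ∧ orderOf g = r} = _ from
    Nat.card_congr (Equiv.setCongr hmain), Nat.card_coe_set_eq, Set.ncard_coe_finset]
  have hdis : ∀ s t, Ψ s = Ψ t → (sh 1 s = s ↔ sh 1 t = t) := by
    intro s t e
    obtain ⟨j, rfl⟩ := (hΨ s t).1 e
    rw [hsh, add_comm j 1, ← hsh]
    exact ⟨fun h => by
      have := congrArg (sh (-j)) h
      rw [hsh, hsh, add_neg_cancel] at this
      simpa [sh] using this, fun h => by rw [h]⟩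
  rw [Finset.card_union_of_disjoint, Finset.card_union_of_disjoint, Finset.card_image_of_injOn (s := Fix), hFc, hBc,
    hN, hWc, hFc, hScc]
  · set e := if r ∣ n then 1 else 0 with he
    have hle : 1 ≤ r := hr.pos
    have h1 : (r * (W.image Ψ).card + e + r - r - e) / r = (W.image Ψ).card := by
      rw [show r * (W.image Ψ).card + e + r - r - e = r * (W.image Ψ).card by omega, Nat.mul_div_cancel_left _ hr.pos]
    rw [h1, Nat.sub_mul, one_mul]
    have : e ≤ r * e := Nat.le_mul_of_pos_left e hr.pos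
    omega
  · intro s hs t ht e
    obtain ⟨j, hj⟩ := (hΨ s t).1 e
    rw [← hj]
    rcases eq_or_ne j 0 with rfl | hj0
    · simp [sh]
    · have h1 := (Finset.mem_filter.1 (hFix ▸ ht)).2
      have : ∀ m : ℕ, sh (m : ZMod r) t = t := fun m => by
        induction m with
        | zero => simp [sh]
        | succ m ih => rw [Nat.cast_succ, add_comm, ← hsh, h1, ih]
      rw [← ZMod.natCast_zmod_val j, this]
  · rw [Finset.disjoint_left]
    intro D h1 h2
    obtain ⟨s, hs, rfl⟩ := Finset.mem_image.1 h1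
    obtain ⟨t, ht, e⟩ := Finset.mem_image.1 h2
    exact (Finset.mem_filter.1 (hW ▸ hs)).2.1 ((hdis t s e).1 (Finset.mem_filter.1 (hFix ▸ ht)).2)
  · rw [Finset.disjoint_left]
    intro D h1 h2
    simp only [B] at h2
    split_ifs at h2 with hdv
    · obtain ⟨j, hj, rfl⟩ := Finset.mem_image.1 h2
      have key : ∀ s, Ψ s ≠ ConjClasses.mk (QuotientGroup.mk (gB j)) := fun s e => by
        obtain ⟨c, hc⟩ := (mk_eq_mk hK).1 e
        have h := hc.pow r
        rw [scal_mul_pow, repU_pow, hgB1 j hdv (hIcc j hj), ← map_mul, isConj_one_right, ← map_one (scal hK)] at h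
        have h' := scal_injective hK hn0 h
        refine hnp j (hIcc j hj) ((c⁻¹ : μ K q) : Kˣ) ?_
        rw [← SubmonoidClass.coe_pow, inv_pow]
        exact congrArg Subtype.val (inv_eq_of_mul_eq_one_right h').symm
      rcases Finset.mem_union.1 h1 with h | h <;>
        · obtain ⟨s, -, e⟩ := Finset.mem_image.1 h
          exact key s e
    · simp at h2

end Cfsg.Agent.Lib.Classical.PGUTorsion
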