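import Cfsg.Agent.Lib.Classical.Order
import Cfsg.Prelude.Def_Classical

/-!
`SL₂(3)` and the two dimensional split orthogonal group.
-/

set_option autoImplicit false

namespace Cfsg.Agent.Lib.Classical

open Matrix
open scoped MatrixGroups

/-- An element of order four of `SL₂(3)`. -/
def quatA : SL(2, ZMod 3) := ⟨!![0, -1; 1, 0], by decide⟩

/-- Another element of order four of `SL₂(3)`. -/
def quatX : SL(2, ZMod 3) := ⟨!![1, 1; 1, -1], by decide⟩

/-- The embedding of the quaternion group in `SL₂(3)`. -/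
def quatToSL : QuaternionGroup 2 → SL(2, ZMod 3)
  | .a i => quatA ^ i.val
  | .xa i => quatX * quatA ^ i.val

lemma quatToSL_mul : ∀ x y : QuaternionGroup 2, quatToSL (x * y) = quatToSL x * quatToSL y := by
  decide +kernel

lemma quatToSL_injective : Function.Injective quatToSL := by
  decide +kernel

lemma quatToSL_normal : ∀ (g : SL(2, ZMod 3)) (x : QuaternionGroup 2),
    ∃ y : QuaternionGroup 2, quatToSL y = g * quatToSL x * g⁻¹ := by
  decide +kernel

theorem exists_quaternion_normal {F : Type*} [Field F] [Fintype F] (hF : Fintype.card F = 3) :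
    ∃ Q : Subgroup (SL(2, F)), Q.Normal ∧ Q.index = 3 ∧ Nonempty (Q ≃* QuaternionGroup 2) := by
  have : Fact (Nat.Prime 3) := ⟨Nat.prime_three⟩
  let e : ZMod 3 ≃+* F := ZMod.ringEquivOfPrime F Nat.prime_three hF
  let ψ : QuaternionGroup 2 →* SL(2, ZMod 3) := MonoidHom.mk' quatToSL quatToSL_mul
  let E : SL(2, ZMod 3) →* SL(2, F) := SpecialLinearGroup.map e.toRingHom
  have hEi : Function.Injective E := fun a b h => by
    apply Subtype.ext; ext i j
    exact e.injective (congrArg (fun M : SL(2, F) => (M : Matrix (Fin 2) (Fin 2) F) i j) h)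
  have hn : ψ.range.Normal := ⟨fun _ hx g => by
    obtain ⟨x, rfl⟩ := hx
    obtain ⟨y, hy⟩ := quatToSL_normal g x
    exact ⟨y, hy⟩⟩
  have hEs : Function.Surjective E := by
    intro M
    refine ⟨⟨(M : Matrix (Fin 2) (Fin 2) F).map e.symm, ?_⟩, ?_⟩
    · have := (RingHom.map_det e.symm.toRingHom (M : Matrix (Fin 2) (Fin 2) F)).symm
      simpa [M.2, RingHom.mapMatrix_apply] using this
    · apply Subtype.ext; ext i j
      exact e.apply_symm_apply _
  have hinj : Function.Injective (E.comp ψ) := hEi.comp quatToSL_injective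
  refine ⟨(E.comp ψ).range, ?_, ?_, ⟨(MonoidHom.ofInjective hinj).symm⟩⟩
  · rw [MonoidHom.range_comp]
    exact hn.map E hEs
  · have h := Subgroup.card_mul_index (E.comp ψ).range
    rw [← Nat.card_congr (MonoidHom.ofInjective hinj).toEquiv, card_SL_two, hF,
      Nat.card_eq_fintype_card, QuaternionGroup.card] at h
    omega

variable {F : Type*} [Field F]

/-- `diag(u, u⁻¹)` on the hyperbolic line. -/
def hypDiag : Fˣ →* GL (Fin 1 ⊕ Fin 1) F where
  toFun u := ⟨diagonal (Sum.elim (fun _ => (u : F)) fun _ => ((u⁻¹ : Fˣ) : F)),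
    diagonal (Sum.elim (fun _ => ((u⁻¹ : Fˣ) : F)) fun _ => (u : F)),
    by rw [diagonal_mul_diagonal]; ext (i | i) (j | j) <;> simp [diagonal, Matrix.one_apply],
    by rw [diagonal_mul_diagonal]; ext (i | i) (j | j) <;> simp [diagonal, Matrix.one_apply]⟩
  map_one' := Units.ext (by ext (i | i) (j | j) <;> simp [diagonal, Matrix.one_apply])
  map_mul' u v := Units.ext (by
    simp only [Units.val_mul, diagonal_mul_diagonal]
    congr 1
    funext i
    cases i <;> simp [mul_comm])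

/-- The swap of the hyperbolic line. -/
def hypSwap : GL (Fin 1 ⊕ Fin 1) F :=
  ⟨fromBlocks 0 1 1 0, fromBlocks 0 1 1 0,
    by simp [fromBlocks_multiply], by simp [fromBlocks_multiply]⟩

lemma hypSwap_mulVec (v : Fin 1 ⊕ Fin 1 → F) :
    ((hypSwap : GL (Fin 1 ⊕ Fin 1) F) : Matrix (Fin 1 ⊕ Fin 1) (Fin 1 ⊕ Fin 1) F) *ᵥ v = v ∘ Sum.swap := by
  ext (i | i) <;> simp [hypSwap, fromBlocks_mulVec, Function.comp_def]

lemma hypDiag_mulVec (u : Fˣ) (v : Fin 1 ⊕ Fin 1 → F) :
    (hypDiag u : Matrix (Fin 1 ⊕ Fin 1) (Fin 1 ⊕ Fin 1) F) *ᵥ v =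
      Sum.elim (fun i => (u : F) * v (.inl i)) fun i => ((u⁻¹ : Fˣ) : F) * v (.inr i) := by
  ext (i | i) <;> simp [hypDiag, mulVec_diagonal]

lemma hyp_ext {g h : GL (Fin 1 ⊕ Fin 1) F}
    (hgh : ∀ v, (g : Matrix (Fin 1 ⊕ Fin 1) (Fin 1 ⊕ Fin 1) F) *ᵥ v =
      (h : Matrix (Fin 1 ⊕ Fin 1) (Fin 1 ⊕ Fin 1) F) *ᵥ v) : g = h :=
  Units.ext (Matrix.ext_iff_mulVec.2 hgh)

lemma hypSwap_conj (u : Fˣ) : hypDiag u * hypSwap = hypSwap * hypDiag u⁻¹ := by
  apply hyp_ext; intro v
  simp only [Units.val_mul, ← mulVec_mulVec, hypDiag_mulVec, hypSwap_mulVec]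
  ext (i | i) <;> simp

lemma hypSwap_sq : (hypSwap : GL (Fin 1 ⊕ Fin 1) F) * hypSwap = 1 := by
  apply hyp_ext; intro v
  simp only [Units.val_mul, ← mulVec_mulVec, hypSwap_mulVec]
  ext (i | i) <;> simp

lemma mem_hyp {g : GL (Fin 1 ⊕ Fin 1) F} :
    g ∈ Cfsg.isometryGroup F (Cfsg.quadFormPlus 1 F) ↔ ∀ v,
      Cfsg.quadFormPlus 1 F ((g : Matrix (Fin 1 ⊕ Fin 1) (Fin 1 ⊕ Fin 1) F) *ᵥ v) =
        Cfsg.quadFormPlus 1 F v :=
  ⟨fun h v => h v v, fun h v _ => h v⟩

theorem hyp_isometry_equiv [Fintype F] {q : ℕ} (hF : Fintype.card F = q) :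
    Nonempty (Cfsg.isometryGroup F (Cfsg.quadFormPlus 1 F) ≃* DihedralGroup (q - 1)) := by
  subst hF
  have hcard : Nat.card Fˣ = Fintype.card F - 1 := card_units_field
  let χ : Multiplicative (ZMod (Fintype.card F - 1)) ≃* Fˣ :=
    (AddEquiv.toMultiplicative (ZMod.ringEquivCongr hcard.symm).toAddEquiv).trans
      (zmodCyclicMulEquiv (inferInstance : IsCyclic Fˣ))
  let d : ZMod (Fintype.card F - 1) → GL (Fin 1 ⊕ Fin 1) F := fun i =>
    hypDiag (χ (Multiplicative.ofAdd i))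
  have hd : ∀ i j, d (i + j) = d i * d j := fun i j => by simp [d, ← map_mul]
  have hdn : ∀ i, d (-i) = hypDiag (χ (Multiplicative.ofAdd i))⁻¹ := fun i => by simp [d]
  have hswap : ∀ i, d i * hypSwap = hypSwap * d (-i) := fun i => by rw [hdn]; exact hypSwap_conj _
  let f : DihedralGroup (Fintype.card F - 1) → GL (Fin 1 ⊕ Fin 1) F
    | .r i => d i
    | .sr i => hypSwap * d i
  have hf : ∀ x y, f (x * y) = f x * f y := by
    rintro (i | i) (j | j)
    · exact hd i j
    · change hypSwap * d (j - i) = d i * (hypSwap * d j)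
      rw [← mul_assoc, hswap, mul_assoc, ← hd]; congr 2; ring
    · change hypSwap * d (i + j) = hypSwap * d i * d j
      rw [hd, mul_assoc]
    · change d (j - i) = hypSwap * d i * (hypSwap * d j)
      rw [mul_assoc hypSwap (d i), ← mul_assoc (d i), hswap, mul_assoc hypSwap, ← mul_assoc,
        hypSwap_sq, one_mul, ← hd]
      congr 1; ring
  let φ : DihedralGroup (Fintype.card F - 1) →* GL (Fin 1 ⊕ Fin 1) F := MonoidHom.mk' f hf
  have hinj : Function.Injective φ := by
    rw [injective_iff_map_eq_one]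
    rintro (i | i) h
    · have := congrFun (congrArg (fun g : GL (Fin 1 ⊕ Fin 1) F =>
        (g : Matrix (Fin 1 ⊕ Fin 1) (Fin 1 ⊕ Fin 1) F) *ᵥ 1) h) (Sum.inl 0)
      simp [φ, f, d, hypDiag_mulVec] at this
      rw [DihedralGroup.one_def]
      congr 1
    · exfalso
      have := congrFun (congrArg (fun g : GL (Fin 1 ⊕ Fin 1) F =>
        (g : Matrix (Fin 1 ⊕ Fin 1) (Fin 1 ⊕ Fin 1) F) *ᵥ Pi.single (Sum.inl 0) 1) h) (Sum.inl 0)
      simp [φ, f, d, ← mulVec_mulVec, hypDiag_mulVec, hypSwap_mulVec, -mulVec_single, -mulVec_single_one,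
        Pi.single_apply] at this
  have hrange : φ.range = Cfsg.isometryGroup F (Cfsg.quadFormPlus 1 F) := by
    apply le_antisymm
    · have hd' : ∀ i, d i ∈ Cfsg.isometryGroup F (Cfsg.quadFormPlus 1 F) := fun i =>
        mem_hyp.2 fun v => by
          simp [d, Cfsg.quadFormPlus, hypDiag_mulVec]
          field_simp
      have hs : hypSwap ∈ Cfsg.isometryGroup F (Cfsg.quadFormPlus 1 F) :=
        mem_hyp.2 fun v => by simp [Cfsg.quadFormPlus, hypSwap_mulVec, mul_comm]
      rintro _ ⟨(i | i), rfl⟩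
      · exact hd' i
      · exact Subgroup.mul_mem _ hs (hd' i)
    · intro g hg
      rw [mem_hyp] at hg
      set M := (g : Matrix (Fin 1 ⊕ Fin 1) (Fin 1 ⊕ Fin 1) F) with hM
      have hMv : ∀ v i, (M *ᵥ v) i = M i (.inl 0) * v (.inl 0) + M i (.inr 0) * v (.inr 0) := by
        intro v i
        simp [mulVec, dotProduct, Fintype.sum_sum_type]
      have h1 := hg (Pi.single (.inl 0) 1)
      have h2 := hg (Pi.single (.inr 0) 1)
      have h3 := hg 1
      simp [Cfsg.quadFormPlus, hMv, Pi.single_apply] at h1 h2 h3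
      rcases eq_or_ne (M (.inr 0) (.inl 0)) 0 with hc | hc
      · have hb : M (.inl 0) (.inr 0) = 0 := by
          rcases h2 with h | h
          · exact h
          · simp [hc, h] at h3
        simp [hb, hc] at h3
        have ha : M (.inl 0) (.inl 0) ≠ 0 := left_ne_zero_of_mul_eq_one h3
        obtain ⟨i, hi⟩ := χ.surjective (Units.mk0 _ ha)
        refine ⟨.r i.toAdd, hyp_ext fun v => ?_⟩
        change ((hypDiag (χ i) : GL (Fin 1 ⊕ Fin 1) F) : Matrix (Fin 1 ⊕ Fin 1) (Fin 1 ⊕ Fin 1) F) *ᵥ v = M *ᵥ v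
        rw [hi, hypDiag_mulVec]
        ext (k | k) <;> simp [hMv, Subsingleton.elim k 0, hb, hc]
        left
        exact (eq_inv_of_mul_eq_one_right h3).symm
      · have ha : M (.inl 0) (.inl 0) = 0 := h1.resolve_right hc
        have hd0 : M (.inr 0) (.inr 0) = 0 := by
          rcases h2 with h | h
          · simp [ha, h] at h3
          · exact h
        simp [ha, hd0] at h3
        obtain ⟨i, hi⟩ := χ.surjective (Units.mk0 _ hc)
        refine ⟨.sr i.toAdd, hyp_ext fun v => ?_⟩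
        change ((hypSwap * hypDiag (χ i) : GL (Fin 1 ⊕ Fin 1) F) : Matrix (Fin 1 ⊕ Fin 1) (Fin 1 ⊕ Fin 1) F) *ᵥ v = M *ᵥ v
        rw [Units.val_mul, ← mulVec_mulVec, hi, hypDiag_mulVec, hypSwap_mulVec]
        ext (k | k) <;> simp [hMv, Subsingleton.elim k 0, ha, hd0]
        left
        exact (eq_inv_of_mul_eq_one_left h3).symm
  rw [← hrange]
  exact ⟨(MonoidHom.ofInjective hinj).symm⟩

end Cfsg.Agent.Lib.Classical
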