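import Cfsg.Agent.Lib.Classical.Symplectic
import Cfsg.Agent.Lib.Classical.UnitarySimple
import Cfsg.Prelude.Def_SporadicB

/-!
Transvections over small fields form classes of 3-transpositions.
-/

set_option autoImplicit false

namespace Cfsg.Agent.Lib.Classical.TransTwo

open Matrix Cfsg.Agent.Lib.Forms Cfsg.Agent.Lib.AutPSU

/-- Braiding or commuting involutions. -/
lemma three_of_braid {G : Type*} [Group G] {d e : G} (hd : d * d = 1) (he : e * e = 1)
    (h : d * e * d⁻¹ = e ∨ d * e * d⁻¹ = e * d * e⁻¹) :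
    (d * e) ^ 2 = 1 ∨ (d * e) ^ 3 = 1 := by
  rw [inv_eq_of_mul_eq_one_left hd] at h
  rcases h with h | h
  · left; rw [pow_two, ← mul_assoc, h, he]
  · right
    rw [inv_eq_of_mul_eq_one_left he] at h
    calc (d * e) ^ 3 = (d * e * d) * (e * d * e) := by simp [pow_succ, mul_assoc]
      _ = (d * e * d) * (d * e * d) := by rw [← h]
      _ = d * (e * (d * d) * e) * d := by simp only [mul_assoc]
      _ = 1 := by rw [hd, mul_one, he, mul_one, hd]

/-- Linear maps moving vectors along one line. -/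
lemma exists_rank_one {ι : Type} [Fintype ι] [DecidableEq ι] {F : Type*} [Field F] {A : Matrix ι ι F}
    (h : (A - 1).rank = 1) : ∃ u : ι → F, u ≠ 0 ∧ (∀ x, ∃ t : F, A *ᵥ x = x + t • u) ∧
      ∃ y, A *ᵥ y = y + u := by
  have h' : Module.finrank F (LinearMap.range (A - 1).mulVecLin) = 1 := h
  obtain ⟨u, hu0, hu⟩ := finrank_eq_one_iff'.1 h'
  have hu' : (u : ι → F) ≠ 0 := fun h0 => hu0 (Subtype.ext h0)
  refine ⟨u, hu', fun x => ?_, ?_⟩
  · obtain ⟨c, hc⟩ := hu ⟨_, LinearMap.mem_range_self (A - 1).mulVecLin x⟩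
    refine ⟨c, ?_⟩
    have hc' : c • (u : ι → F) = (A - 1).mulVecLin x := congrArg Subtype.val hc
    rw [hc', Matrix.mulVecLin_apply, sub_mulVec, one_mulVec, add_sub_cancel]
  · obtain ⟨y, hy⟩ := u.2
    refine ⟨y, ?_⟩
    rw [← hy, Matrix.mulVecLin_apply, sub_mulVec, one_mulVec, add_sub_cancel]

/-- A rank one displacement. -/
lemma rank_eq_one {ι : Type} [Fintype ι] [DecidableEq ι] {F : Type*} [Field F] {A : Matrix ι ι F}
    {u : ι → F} (hu : u ≠ 0) (hA : ∀ x, ∃ t : F, A *ᵥ x = x + t • u)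
    (hy : ∃ y, A *ᵥ y ≠ y) : (A - 1).rank = 1 := by
  change Module.finrank F (LinearMap.range (A - 1).mulVecLin) = 1
  have he : LinearMap.range (A - 1).mulVecLin = Submodule.span F {u} := by
    refine le_antisymm ?_ ((Submodule.span_singleton_le_iff_mem _ _).2 ?_)
    · rintro _ ⟨x, rfl⟩
      obtain ⟨t, ht⟩ := hA x
      rw [Matrix.mulVecLin_apply, sub_mulVec, one_mulVec, ht, add_sub_cancel_left]
      exact Submodule.smul_mem _ _ (Submodule.mem_span_singleton_self u)
    · obtain ⟨y, hy⟩ := hy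
      obtain ⟨t, ht⟩ := hA y
      have ht0 : t ≠ 0 := fun h0 => hy (by rw [ht, h0, zero_smul, add_zero])
      refine ⟨t⁻¹ • y, ?_⟩
      rw [map_smul, Matrix.mulVecLin_apply, sub_mulVec, one_mulVec, ht, add_sub_cancel_left, smul_smul,
        inv_mul_cancel₀ ht0, one_smul]
  rw [he, finrank_span_singleton hu]

section symp

abbrev Z2 := ZMod 2

variable {m : ℕ}

lemma z2_cases : ∀ x : Z2, x = 0 ∨ x = 1 := by decide

lemma stdB_comm (x y : Fin m ⊕ Fin m → Z2) : stdB m Z2 x y = stdB m Z2 y x := by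
  rw [← (stdB_isAlt m).neg_eq]
  exact (by decide : ∀ a : Z2, -a = a) _

/-- The symplectic transvections form a class of 3-transpositions. -/
theorem symp_class (n : ℕ) (hn : 1 ≤ n) :
    Cfsg.IsThreeTranspositionClass {g : Matrix.symplecticGroup (Fin n) Z2 |
      ((g : Matrix (Fin n ⊕ Fin n) (Fin n ⊕ Fin n) Z2) - 1).rank = 1} := by
  set D := {g : Matrix.symplecticGroup (Fin n) Z2 |
    ((g : Matrix (Fin n ⊕ Fin n) (Fin n ⊕ Fin n) Z2) - 1).rank = 1}
  have hne : ∀ u : Fin n ⊕ Fin n → Z2, u ≠ 0 → spT n u 1 ≠ 1 := fun u hu h => by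
    obtain ⟨w, hw⟩ := exists_pairing_one (stdB_nondegenerate n) hu
    have := spT_mulVec n u 1 w
    rw [h, stdB_comm, hw] at this
    simp at this
    exact hu this
  have hD : ∀ g, g ∈ D ↔ ∃ u, u ≠ 0 ∧ g = spT n u 1 := by
    intro g
    constructor
    · intro hg
      obtain ⟨u, hu, hA, y, hy⟩ := exists_rank_one hg
      refine ⟨u, hu, sp_ext fun x => ?_⟩
      have key : ∀ x t, (g : Matrix (Fin n ⊕ Fin n) (Fin n ⊕ Fin n) Z2) *ᵥ x = x + t • u →
          stdB n Z2 x u = t * stdB n Z2 y u := fun x t ht => by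
        have h := sp_iso n g x y
        rw [ht, hy] at h
        simp only [map_add, map_smul, LinearMap.add_apply, LinearMap.smul_apply, smul_eq_mul,
          (stdB_isAlt n).self_eq_zero, mul_zero, add_zero, stdB_comm u y] at h
        exact (by decide : ∀ a b c t : Z2, a + t * c + b = a → b = t * c) _ _ _ _ h
      have hyu : stdB n Z2 y u = 1 := by
        refine (z2_cases _).resolve_left fun h0 => ?_
        obtain ⟨w, hw⟩ := exists_pairing_one (stdB_nondegenerate n) hu
        obtain ⟨t, ht⟩ := hA w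
        have := key w t ht
        rw [h0, mul_zero, stdB_comm, hw] at this
        exact one_ne_zero this
      obtain ⟨t, ht⟩ := hA x
      rw [ht, spT_mulVec, one_mul, key x t ht, hyu, mul_one]
    · rintro ⟨u, hu, rfl⟩
      obtain ⟨w, hw⟩ := exists_pairing_one (stdB_nondegenerate n) hu
      refine rank_eq_one hu (fun x => ⟨_, spT_mulVec n u 1 x⟩) ⟨w, ?_⟩
      rw [spT_mulVec, stdB_comm, hw, one_mul, one_smul]
      simpa using hu
  have hsq : ∀ u, spT n u (1 : Z2) * spT n u 1 = 1 := fun u => sp_ext fun x => by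
    rw [Submonoid.coe_mul, ← mulVec_mulVec, spT_mulVec, spT_mulVec]
    simp only [map_add, map_smul, LinearMap.add_apply, LinearMap.smul_apply, smul_eq_mul,
      (stdB_isAlt n).self_eq_zero, mul_zero, add_zero]
    rw [add_assoc, ← add_smul, CharTwo.add_self_eq_zero, zero_smul, add_zero]
    simp
  refine ⟨⟨fun d hd => ?_, fun d hd e he => ?_⟩, ?_, ?_⟩
  · obtain ⟨u, hu, rfl⟩ := (hD d).1 hd
    have := Fact.mk Nat.prime_two
    exact orderOf_eq_prime (by rw [pow_two, hsq]) (hne u hu)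
  · obtain ⟨u, hu, rfl⟩ := (hD d).1 hd
    obtain ⟨v, hv, rfl⟩ := (hD e).1 he
    refine three_of_braid (hsq u) (hsq v) ?_
    rw [spT_conj, spT_conj, spT_mulVec, spT_mulVec, one_mul, one_mul, stdB_comm u v]
    rcases z2_cases (stdB n Z2 v u) with h | h <;> rw [h]
    · left; rw [zero_smul, add_zero]
    · right; rw [one_smul, one_smul, add_comm]
  · set v₀ : Fin n ⊕ Fin n → Z2 := Pi.single (Sum.inl ⟨0, hn⟩) 1 with hv₀
    have hv₀0 : v₀ ≠ 0 := fun h => by simpa [hv₀] using congrFun h (Sum.inl ⟨0, hn⟩)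
    refine ⟨spT n v₀ 1, (hD _).2 ⟨v₀, hv₀0, rfl⟩, ?_⟩
    ext g
    change g ∈ D ↔ IsConj _ g
    rw [isConj_iff, hD]
    constructor
    · rintro ⟨u, hu, rfl⟩
      obtain ⟨c, hc⟩ := sp_transitive n hv₀0 hu
      exact ⟨c, by rw [spT_conj, hc]⟩
    · rintro ⟨c, rfl⟩
      refine ⟨(c : Matrix (Fin n ⊕ Fin n) (Fin n ⊕ Fin n) Z2) *ᵥ v₀, fun h => ?_, by rw [spT_conj]⟩
      have h1 : spT n v₀ (1 : Z2) = c⁻¹ * spT n ((c : Matrix (Fin n ⊕ Fin n) (Fin n ⊕ Fin n) Z2) *ᵥ v₀) 1 * c := by
        rw [← spT_conj]; group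
      rw [h, show spT n (0 : Fin n ⊕ Fin n → Z2) 1 = 1 from sp_ext fun x => by
        rw [spT_mulVec, smul_zero, add_zero]; simp, mul_one, inv_mul_cancel] at h1
      exact hne v₀ hv₀0 h1
  · refine sp_eq_top_of_spT n _ fun v c => ?_
    rcases z2_cases c with rfl | rfl
    · rw [show spT n v (0 : Z2) = 1 from sp_ext fun x => by
        rw [spT_mulVec, zero_mul, zero_smul, add_zero]; simp]
      exact one_mem _
    rcases eq_or_ne v 0 with rfl | hv
    · rw [show spT n (0 : Fin n ⊕ Fin n → Z2) 1 = 1 from sp_ext fun x => by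
        rw [spT_mulVec, smul_zero, add_zero]; simp]
      exact one_mem _
    exact Subgroup.subset_closure ((hD _).2 ⟨v, hv, rfl⟩)

end symp

section unitary

universe u

variable {n : ℕ} {F : Type u} [Field F] [Fintype F] [DecidableEq F]

/-- The unitary transvections over four elements form a class of 3-transpositions. -/
theorem unitary_class (hF4 : Fintype.card F = 4) (hn : 4 ≤ n) :
    Cfsg.IsThreeTranspositionClass {g : S n F 2 | (mat g - 1).rank = 1} := by
  have hF : Fintype.card F = 2 ^ 2 := by rw [hF4]; norm_num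
  have h2 : (2 : F) = 0 := by
    have := FiniteField.cast_card_eq_zero F
    rw [hF4] at this
    push_cast at this
    rw [show (4 : F) = 2 * 2 by norm_num, mul_self_eq_zero] at this
    exact this
  haveI : CharP F 2 := CharTwo.of_one_ne_zero_of_two_eq_zero one_ne_zero h2
  have hfix : ∀ a : F, a ^ 2 = a → a = 0 ∨ a = 1 := fun a ha => by
    rcases eq_or_ne a 0 with h | h
    · exact Or.inl h
    · exact Or.inr (mul_left_cancel₀ h (by rw [← pow_two, ha, mul_one]))
  have h3 : ∀ a : F, a ≠ 0 → a * a ^ 2 = 1 := fun a ha => by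
    rw [← pow_succ', show 2 + 1 = Fintype.card F - 1 by rw [hF4]]
    exact FiniteField.pow_card_sub_one_eq_one a ha
  have hskew : ∀ c : F, Skew 2 c → c ^ 2 = c := fun c hc => by
    rw [Skew, ← CharTwo.sub_eq_add, sub_eq_zero] at hc
    exact hc.symm
  have h1 : Skew 2 (1 : F) := by rw [Skew, one_pow, CharTwo.add_self_eq_zero]
  have hz : ∀ c : F, Skew 2 c → T hF (0 : Fin n → F) c = 1 := fun c hc => vec_ext fun x => by
    rw [T_mulVec hF (hm_zero_left _) hc, smul_zero, add_zero, mat_one, one_mulVec]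
  have hne : ∀ u : Fin n → F, Valid 2 u → T hF u (1 : F) ≠ 1 := fun u hu h => by
    obtain ⟨w, hw, -⟩ := exists_hm_one hF hu.1
    have := T_mulVec hF hu.2 h1 w
    rw [h, mat_one, one_mulVec, hw, mul_one, one_smul] at this
    exact hu.1 (by simpa using this)
  set D := {g : S n F 2 | (mat g - 1).rank = 1}
  have hD : ∀ g, g ∈ D ↔ ∃ u, Valid 2 u ∧ g = T hF u 1 := by
    intro g
    constructor
    · intro hg
      obtain ⟨u, hu, hA, y, hy⟩ := exists_rank_one hg
      have key : ∀ x t, mat g *ᵥ x = x + t • u →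
          hm 2 x u = -(hm 2 u y + hm 2 u u) * t := fun x t ht => by
        have h := iso g x y
        rw [ht, hy, hm_add_left, hm_add_right hF, hm_add_right hF, hm_smul_left',
          hm_smul_left'] at h
        linear_combination h
      obtain ⟨w, hw, -⟩ := exists_hm_one hF hu
      obtain ⟨t₀, ht₀⟩ := hA w
      set μ := -(hm 2 u y + hm 2 u u)
      have hμ : μ ≠ 0 := fun h0 => by
        have := key w t₀ ht₀
        rw [hw, h0, zero_mul] at this
        exact one_ne_zero this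
      have hgx : ∀ x, mat g *ᵥ x = x + (μ⁻¹ * hm 2 x u) • u := fun x => by
        obtain ⟨t, ht⟩ := hA x
        rw [ht, key x t ht, ← mul_assoc, inv_mul_cancel₀ hμ, one_mul]
      have hdil : mat g = dil hF u u (1 + μ⁻¹) := Matrix.ext_iff_mulVec.2 fun x => by
        rw [hgx, dil_mulVec, add_sub_cancel_left]
      have huu : hm 2 u u = 0 := by
        have := congrArg Matrix.det hdil
        rw [Matrix.SpecialLinearGroup.det_coe, dil_det, add_sub_cancel_left, left_eq_add] at this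
        exact (mul_eq_zero.1 this).resolve_left (inv_ne_zero hμ)
      have hc : Skew 2 μ⁻¹ := by
        obtain ⟨z, hz, hz'⟩ := exists_hm_one hF hu
        have h := iso g z z
        rw [hgx, hz, mul_one, hm_add_left, hm_add_right hF, hm_add_right hF, hm_smul_left',
          hm_smul_right, hm_smul_left', hm_smul_right, huu, hz, hz'] at h
        rw [Skew]
        linear_combination h
      have : μ⁻¹ = 1 := (hfix _ (hskew _ hc)).resolve_left (inv_ne_zero hμ)
      refine ⟨u, ⟨hu, huu⟩, vec_ext fun x => ?_⟩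
      rw [hgx, T_mulVec hF huu h1, this]
    · rintro ⟨u, hu, rfl⟩
      obtain ⟨w, hw, -⟩ := exists_hm_one hF hu.1
      refine rank_eq_one hu.1 (fun x => ⟨_, T_mulVec hF hu.2 h1 x⟩) ⟨w, ?_⟩
      rw [T_mulVec hF hu.2 h1, hw, mul_one, one_smul]
      simpa using hu.1
  have hsq : ∀ u : Fin n → F, hm 2 u u = 0 → T hF u (1 : F) * T hF u 1 = 1 := fun u hu => by
    rw [T_add hF hu h1 h1, CharTwo.add_self_eq_zero, T_zero hF hu]
  refine ⟨⟨fun d hd => ?_, fun d hd e he => ?_⟩, ?_, ?_⟩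
  · obtain ⟨u, hu, rfl⟩ := (hD d).1 hd
    have := Fact.mk Nat.prime_two
    exact orderOf_eq_prime (by rw [pow_two, hsq u hu.2]) (hne u hu)
  · obtain ⟨u, hu, rfl⟩ := (hD d).1 hd
    obtain ⟨v, hv, rfl⟩ := (hD e).1 he
    refine three_of_braid (hsq u hu.2) (hsq v hv.2) ?_
    rw [T_conj hF hv.2 h1, T_conj hF hu.2 h1]
    rcases eq_or_ne (hm 2 v u) 0 with h | h
    · left; rw [T_mulVec hF hu.2 h1, h, mul_zero, zero_smul, add_zero]
    · right
      have hab : hm 2 u v * hm 2 v u = 1 := by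
        rw [hm_swap hF v u, mul_comm]
        exact h3 _ h
      have hw : mat (T hF v (1 : F)) *ᵥ u = hm 2 u v • (mat (T hF u 1) *ᵥ v) := by
        rw [T_mulVec hF hv.2 h1, T_mulVec hF hu.2 h1, one_mul, one_mul, smul_add, smul_smul, hab,
          one_smul, add_comm]
      have hw0 : hm 2 (mat (T hF u (1 : F)) *ᵥ v) (mat (T hF u (1 : F)) *ᵥ v) = 0 := by rw [iso, hv.2]
      have huv : hm 2 u v ≠ 0 := fun h0 => by rw [h0, zero_mul] at hab; exact zero_ne_one hab
      rw [hw, T_smul hF hw0 _ h1, h3 _ huv, mul_one]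
  · obtain ⟨e, f, HP⟩ := exists_pair hF (n := n) (by omega)
    refine ⟨T hF e 1, (hD _).2 ⟨e, HP.valid_e, rfl⟩, ?_⟩
    ext g
    change g ∈ D ↔ IsConj _ g
    rw [isConj_iff, hD]
    constructor
    · rintro ⟨u, hu, rfl⟩
      obtain ⟨c, s, hs, hc⟩ := transitive hF HP (by omega) hu
      exact ⟨c, by rw [T_conj hF HP.ee h1, hc, T_smul hF hu.2 _ h1, h3 s hs, mul_one]⟩
    · rintro ⟨c, rfl⟩
      exact ⟨mat c *ᵥ e, ⟨mulVec_ne_zero _ HP.e_ne, by rw [iso, HP.ee]⟩, by rw [T_conj hF HP.ee h1]⟩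
  · rw [eq_top_iff, ← UnitarySimple.generated hF (by omega : 3 ≤ n) (by omega), Subgroup.closure_le]
    rintro _ ⟨v, c, hv, hc, rfl⟩
    rcases hfix c (hskew c hc) with rfl | rfl
    · rw [T_zero hF hv]; exact one_mem _
    rcases eq_or_ne v 0 with rfl | hv0
    · rw [hz _ h1]; exact one_mem _
    exact Subgroup.subset_closure ((hD _).2 ⟨v, ⟨hv0, hv⟩, rfl⟩)

end unitary

end Cfsg.Agent.Lib.Classical.TransTwo
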