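import Cfsg.Agent.Lib.Classical.QuadOmega.Generation
import Cfsg.Prelude.Def_SporadicB

/-!
Transvections of orthogonal groups over the field of two elements.
-/

set_option autoImplicit false

namespace Cfsg.Agent.Lib.Classical.Transpositions

open QuadraticMap Cfsg.Agent.Lib.Classical.Quad Cfsg.Agent.Lib.Classical.QuadOmega
open scoped Matrix

attribute [local instance] _root_.Classical.propDecidable

abbrev Z2 := ZMod 2

lemma two_cases : ∀ x : Z2, x = 0 ∨ x = 1 := by decide

variable {V : Type*} [AddCommGroup V] [Module Z2 V] {Q : QuadraticForm Z2 V}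

lemma refl_move (v w : V) (hw : Q w = 1) : (refl Q w).1 v = v + polar Q v w • w := by
  rw [refl_apply (by rw [hw]; exact one_ne_zero), hw, div_one, sub_eq_add_neg, ← neg_smul,
    show ∀ x : Z2, -x = x by decide]

lemma three_of_refl {u v : V} (hu : Q u = 1) (hv : Q v = 1) :
    (refl Q u * refl Q v) ^ 2 = 1 ∨ (refl Q u * refl Q v) ^ 3 = 1 := by
  have hu0 : Q u ≠ 0 := by rw [hu]; exact one_ne_zero
  have hv0 : Q v ≠ 0 := by rw [hv]; exact one_ne_zero
  have e1 := refl_conj hv0 (refl Q u)
  have e2 := refl_conj hu0 (refl Q v)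
  rw [refl_inv hu0] at e1
  rw [refl_inv hv0] at e2
  rw [refl_move _ _ hu] at e1
  rw [refl_move _ _ hv] at e2
  rcases two_cases (polar Q v u) with h | h
  · left
    rw [h, zero_smul, add_zero] at e1
    rw [pow_two, ← mul_assoc, e1, refl_mul_self hv0]
  · right
    rw [h, one_smul] at e1
    rw [polar_comm, h, one_smul, add_comm] at e2
    have h3 : refl Q u * refl Q v * refl Q u = refl Q v * refl Q u * refl Q v := e1.trans e2.symm
    calc (refl Q u * refl Q v) ^ 3
        = (refl Q u * refl Q v * refl Q u) * (refl Q v * refl Q u * refl Q v) := by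
          simp [pow_succ, mul_assoc]
      _ = 1 := by
          rw [← h3]
          have hinv : (refl Q u * refl Q v * refl Q u) * (refl Q u * refl Q v * refl Q u) =
              refl Q u * (refl Q v * (refl Q u * refl Q u) * refl Q v) * refl Q u := by
            simp [mul_assoc]
          rw [hinv, refl_mul_self hu0, mul_one, refl_mul_self hv0, mul_one, refl_mul_self hu0]

variable {ι : Type} [Fintype ι] [DecidableEq ι]

/-- The transvections form a class of 3-transpositions. -/
theorem isThreeTranspositionClass (R : QuadraticForm Z2 (ι → Z2)) (hR : Nd R)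
    (hn : Fintype.card ι ≠ 4) (hpos : 0 < Fintype.card ι) :
    Cfsg.IsThreeTranspositionClass {g : Cfsg.isometryGroup Z2 ⇑R |
      (((g : Matrix.GeneralLinearGroup ι Z2) : Matrix ι ι Z2) - 1).rank = 1} := by
  classical
  have hreg : Reg Z2 (ι → Z2) := Or.inr (by rw [Module.finrank_fintype_fun_eq_card]; exact hn)
  have : Nontrivial (ι → Z2) := Module.nontrivial_of_finrank_pos (R := Z2)
    (by rw [Module.finrank_fintype_fun_eq_card]; exact hpos)
  set D := {g : Cfsg.isometryGroup Z2 ⇑R |
    (((g : Matrix.GeneralLinearGroup ι Z2) : Matrix ι ι Z2) - 1).rank = 1}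
  -- the members are the reflections
  have hne : ∀ w, R w = 1 → ∃ x, (refl R w).1 x ≠ x := fun w hw => by
    have hw0 : w ≠ 0 := fun h => by rw [h, map_zero] at hw; exact zero_ne_one hw
    obtain ⟨x, hx⟩ := hR.exists_one hw0
    refine ⟨x, ?_⟩
    rw [refl_move _ _ hw, polar_comm, hx, one_smul]
    simpa using hw0
  have hD : ∀ g, g ∈ D ↔ ∃ w, R w = 1 ∧ matEquiv R g = refl R w := by
    intro g
    set A : Matrix ι ι Z2 := ((g : Matrix.GeneralLinearGroup ι Z2) : Matrix ι ι Z2) - 1
    have hA : ∀ x, A.mulVecLin x = (matEquiv R g).1 x - x := fun x => by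
      rw [Matrix.mulVecLin_apply, Matrix.sub_mulVec, Matrix.one_mulVec, matEquiv_apply]
    constructor
    · intro hr
      have hr' : Module.finrank Z2 (LinearMap.range A.mulVecLin) = 1 := hr
      obtain ⟨u, hu0, hu⟩ := finrank_eq_one_iff'.1 hr'
      have hu' : (u : ι → Z2) ≠ 0 := fun h => hu0 (Subtype.ext h)
      have hφ : ∀ x, (matEquiv R g).1 x - x = 0 ∨ (matEquiv R g).1 x - x = u := fun x => by
        obtain ⟨c, hc⟩ := hu ⟨_, LinearMap.mem_range_self A.mulVecLin x⟩
        have hc' : c • (u : ι → Z2) = A.mulVecLin x := congrArg Subtype.val hc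
        rw [hA] at hc'
        rcases two_cases c with rfl | rfl
        · left; rw [← hc', zero_smul]
        · right; rw [← hc', one_smul]
      obtain ⟨x₀, hx₀⟩ : ∃ x, (matEquiv R g).1 x - x = u := by
        obtain ⟨x, hx⟩ := u.2
        exact ⟨x, by rw [← hA, hx]⟩
      have hQx : ∀ x, (matEquiv R g).1 x - x = u → polar R x u = R u := fun x hx => by
        have h := iso_Q (matEquiv R g) x
        rw [sub_eq_iff_eq_add'.1 hx, QuadraticMap.map_add ⇑R] at h
        have h2 : ∀ a b c : Z2, a + b + c = a → c = b := by decide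
        exact h2 _ _ _ h
      have hker : ∀ y, (matEquiv R g).1 y - y = 0 → polar R y u = 0 := fun y hy => by
        have h := hQx (y + x₀) (by rw [map_add, add_sub_add_comm, hy, hx₀, zero_add])
        rw [polar_add_left, hQx x₀ hx₀] at h
        simpa using h
      have hu1 : R (u : ι → Z2) = 1 := by
        refine (two_cases _).resolve_left fun h0 => hu' (hR _ fun x => ?_)
        rw [polar_comm]
        rcases hφ x with h | h
        · exact hker x h
        · rw [hQx x h, h0]
      refine ⟨u, hu1, iso_ext fun x => ?_⟩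
      rw [refl_move _ _ hu1]
      rcases hφ x with h | h
      · rw [hker x h, zero_smul, add_zero, sub_eq_zero.1 h]
      · rw [hQx x h, hu1, one_smul, ← h, add_sub_cancel]
    · rintro ⟨w, hw, hg⟩
      have hw0 : w ≠ 0 := fun h => by rw [h, map_zero] at hw; exact zero_ne_one hw
      change Module.finrank Z2 (LinearMap.range A.mulVecLin) = 1
      rw [show LinearMap.range A.mulVecLin = Submodule.span Z2 {w} from ?_, finrank_span_singleton hw0]
      refine le_antisymm ?_ ((Submodule.span_singleton_le_iff_mem _ _).2 ?_)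
      · rintro _ ⟨x, rfl⟩
        rw [hA, hg, refl_move _ _ hw, add_sub_cancel_left]
        exact Submodule.smul_mem _ _ (Submodule.mem_span_singleton_self w)
      · obtain ⟨x, hx⟩ := hR.exists_one hw0
        exact ⟨x, by rw [hA, hg, refl_move _ _ hw, polar_comm, hx, one_smul, add_sub_cancel_left]⟩
  refine ⟨⟨fun d hd => ?_, fun d hd e he => ?_⟩, ?_, ?_⟩
  · obtain ⟨w, hw, hg⟩ := (hD d).1 hd
    have := Fact.mk Nat.prime_two
    rw [← MulEquiv.orderOf_eq (matEquiv R) d, hg]
    refine orderOf_eq_prime ?_ fun h => ?_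
    · rw [pow_two, refl_mul_self (by rw [hw]; exact one_ne_zero)]
    · obtain ⟨x, hx⟩ := hne w hw
      exact hx (by rw [h]; rfl)
  · obtain ⟨u, hu, hdu⟩ := (hD d).1 hd
    obtain ⟨v, hv, hev⟩ := (hD e).1 he
    have h := three_of_refl hu hv
    rw [← hdu, ← hev, ← map_mul, ← map_pow, ← map_pow, ← map_one (matEquiv R),
      (matEquiv R).injective.eq_iff, (matEquiv R).injective.eq_iff] at h
    exact h
  · obtain ⟨u, hu⟩ := hR.exists_nonsing
    have hu1 : R u = 1 := (two_cases _).resolve_left hu
    refine ⟨(matEquiv R).symm (refl R u), (hD _).2 ⟨u, hu1, (matEquiv R).apply_symm_apply _⟩, ?_⟩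
    ext g
    change g ∈ D ↔ IsConj _ g
    rw [isConj_iff, hD]
    constructor
    · rintro ⟨w, hw, hg⟩
      obtain ⟨c, hc⟩ := exists_map_eq hR hreg hu (v := w) (by rw [hw, hu1])
      refine ⟨(matEquiv R).symm c, (matEquiv R).injective ?_⟩
      rw [map_mul, map_mul, map_inv, MulEquiv.apply_symm_apply, MulEquiv.apply_symm_apply, refl_conj hu, hg]
      rcases hc with hc | hc
      · rw [hc]
      · rw [hc, show -w = w from funext fun i => by simp [show ∀ x : Z2, -x = x by decide]]
    · rintro ⟨c, rfl⟩
      exact ⟨(matEquiv R c).1 u, by rw [iso_Q, hu1], by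
        rw [map_mul, map_mul, map_inv, MulEquiv.apply_symm_apply, refl_conj hu]⟩
  · rw [← closure_reflection_eq_top R hR hreg]
    congr 1
    ext g
    rw [hD]
    refine ⟨fun ⟨w, hw, hg⟩ => ?_, fun ⟨w, hw, hg⟩ => ?_⟩
    · exact ⟨w, by rw [hw]; exact one_ne_zero,
        (coe_eq_reflection_iff R (by rw [hw]; exact one_ne_zero) g).2 hg⟩
    · exact ⟨w, (two_cases _).resolve_left hw, (coe_eq_reflection_iff R hw g).1 hg⟩

end Cfsg.Agent.Lib.Classical.Transpositions
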