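import Cfsg.Agent.Lib.Classical.UnitaryFlat
import Cfsg.Agent.Lib.Classical.Unitary
import Mathlib.FieldTheory.Finite.GaloisField

/-! The centraliser of the scalar generator in the symplectic group is the unitary group. -/

set_option autoImplicit false

namespace Cfsg.Agent.Lib.Classical.UnitaryFlat

open scoped Matrix

variable {F K : Type*} [Field F] [Field K] {q : ℕ} {a b : F} {m : ℕ} (D : Data F K q a b)

/-- The scalar generator in flat coordinates. -/
noncomputable def flatTheta : Matrix (Fin m ⊕ Fin m) (Fin m ⊕ Fin m) F := flatMat D (D.θ • 1)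

lemma iota_flatTheta (z : Fin m ⊕ Fin m → F) : iota D (flatTheta D *ᵥ z) = D.θ • iota D z := by
  rw [flatTheta, iota_flatMat, Matrix.smul_mulVec, Matrix.one_mulVec]

lemma iotaInv_iota (z : Fin m ⊕ Fin m → F) : iotaInv D (iota D z) = z :=
  (iota_bijective D).1 (iota_iotaInv D _)

theorem card_centralizer_theta [Fintype F] [Fintype K] (hK : Fintype.card K = q ^ 2)
    (A : Matrix.symplecticGroup (Fin m) F) (hA : (A : Matrix (Fin m ⊕ Fin m) (Fin m ⊕ Fin m) F) = flatTheta D) :
    Nat.card (Subgroup.centralizer ({A} : Set (Matrix.symplecticGroup (Fin m) F))) = Nat.card (Cfsg.GU m K q) := by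
  classical
  have hcomm : ∀ g : Cfsg.GU m K q,
      (⟨flatMat D ((g : GL (Fin m) K) : Matrix (Fin m) (Fin m) K), flatMat_alt D g⟩ : Matrix.symplecticGroup (Fin m) F) ∈
        Subgroup.centralizer ({A} : Set (Matrix.symplecticGroup (Fin m) F)) := fun g => by
    rw [Subgroup.mem_centralizer_singleton_iff, Subtype.ext_iff, Submonoid.coe_mul, Submonoid.coe_mul, hA, flatTheta]
    show flatMat D _ * flatMat D (D.θ • 1) = flatMat D (D.θ • 1) * flatMat D _
    rw [← map_mul, ← map_mul]
    congr 1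
    rw [smul_mul_assoc, one_mul, mul_smul_comm, mul_one]
  refine (Nat.card_eq_of_bijective (fun g => (⟨_, hcomm g⟩ :
    ↥(Subgroup.centralizer ({A} : Set (Matrix.symplecticGroup (Fin m) F))))) ⟨fun g h e => ?_, ?_⟩).symm
  · exact Subtype.ext (flatGL_injective D (Units.ext (congrArg Subtype.val (congrArg Subtype.val e) :)))
  rintro ⟨B, hB⟩
  rw [Subgroup.mem_centralizer_singleton_iff, Subtype.ext_iff, Submonoid.coe_mul, Submonoid.coe_mul, hA] at hB
  set L : (Fin m → K) → (Fin m → K) := fun v => iota D ((B : Matrix _ _ F) *ᵥ iotaInv D v) with hL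
  have hLi : ∀ z, L (iota D z) = iota D ((B : Matrix _ _ F) *ᵥ z) := fun z => by rw [hL]; simp only [iotaInv_iota]
  have hadd : ∀ v w, L (v + w) = L v + L w := fun v w => by
    obtain ⟨z, rfl⟩ := (iota_bijective D).2 v
    obtain ⟨z', rfl⟩ := (iota_bijective D).2 w
    rw [← iota_add, hLi, hLi, hLi, Matrix.mulVec_add, iota_add]
  have hf : ∀ (c : F) v, L (D.f c • v) = D.f c • L v := fun c v => by
    obtain ⟨z, rfl⟩ := (iota_bijective D).2 v
    rw [← iota_smul, hLi, hLi, Matrix.mulVec_smul, iota_smul]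
  have hth : ∀ v, L (D.θ • v) = D.θ • L v := fun v => by
    obtain ⟨z, rfl⟩ := (iota_bijective D).2 v
    rw [← iota_flatTheta, hLi, hLi, ← iota_flatTheta, Matrix.mulVec_mulVec, Matrix.mulVec_mulVec, hB]
  have hsmul : ∀ (c : K) v, L (c • v) = c • L v := fun c v => by
    obtain ⟨x, y, rfl⟩ := D.surj c
    rw [add_smul, mul_smul, hadd, hf, hth, hf, add_smul, mul_smul]
  let Lin : (Fin m → K) →ₗ[K] (Fin m → K) := { toFun := L, map_add' := hadd, map_smul' := hsmul }
  have hM : ∀ v, LinearMap.toMatrix' Lin *ᵥ v = L v := fun v => LinearMap.toMatrix'_mulVec Lin v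
  have hflat : flatMat D (LinearMap.toMatrix' Lin) = (B : Matrix (Fin m ⊕ Fin m) (Fin m ⊕ Fin m) F) :=
    Matrix.ext_of_mulVec_single fun i => (iota_bijective D).1 (by rw [iota_flatMat, hM, hLi])
  have hinj : Function.Injective L := fun v w h => by
    obtain ⟨z, rfl⟩ := (iota_bijective D).2 v
    obtain ⟨z', rfl⟩ := (iota_bijective D).2 w
    rw [hLi, hLi] at h
    have hu : IsUnit (B : Matrix (Fin m ⊕ Fin m) (Fin m ⊕ Fin m) F) :=
      (Matrix.isUnit_iff_isUnit_det _).2 (SymplecticGroup.symplectic_det B.2)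
    rw [Matrix.mulVec_injective_iff_isUnit.2 hu ((iota_bijective D).1 h)]
  have hu : IsUnit (LinearMap.toMatrix' Lin) := Matrix.mulVec_injective_iff_isUnit.1 fun v w h => by
    rw [hM, hM] at h; exact hinj h
  have hskew : ∀ v w, Cfsg.hermForm m K q (L v) (L w) - Cfsg.hermForm m K q (L w) (L v) =
      Cfsg.hermForm m K q v w - Cfsg.hermForm m K q w v := fun v w => by
    obtain ⟨z, rfl⟩ := (iota_bijective D).2 v
    obtain ⟨z', rfl⟩ := (iota_bijective D).2 w
    rw [hLi, hLi, herm_sub, herm_sub, flatAlt_eq, flatAlt_eq, Matrix.mulVec_mulVec]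
    congr 2
    have hB' := SymplecticGroup.mem_iff'.1 B.2
    conv_rhs => rw [← hB', ← Matrix.mulVec_mulVec, ← Matrix.mulVec_mulVec, Matrix.dotProduct_mulVec,
      Matrix.vecMul_transpose]
    rw [← Matrix.mulVec_mulVec]
  have hl : ∀ (c : K) v w, Cfsg.hermForm m K q (c • v) w = c * Cfsg.hermForm m K q v w := fun c v w => by
    simp [Cfsg.hermForm, Finset.mul_sum, mul_assoc]
  have hr : ∀ (c : K) v w, Cfsg.hermForm m K q v (c • w) = c ^ q * Cfsg.hermForm m K q v w := fun c v w => by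
    simp [Cfsg.hermForm, Finset.mul_sum, mul_pow, mul_comm, mul_left_comm]
  have hgu : hu.unit ∈ Cfsg.GU m K q := fun v w => by
    show Cfsg.hermForm m K q (LinearMap.toMatrix' Lin *ᵥ v) (LinearMap.toMatrix' Lin *ᵥ w) = _
    rw [hM, hM]
    have h1 := hskew (D.θ • v) w
    rw [hsmul, hl, hr, hl, hr] at h1
    refine mul_left_cancel₀ (sub_ne_zero.2 (Ne.symm D.hne)) ?_
    linear_combination h1 - D.θ ^ q * hskew v w
  exact ⟨⟨hu.unit, hgu⟩, Subtype.ext (Subtype.ext hflat)⟩

end Cfsg.Agent.Lib.Classical.UnitaryFlat
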