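import Cfsg.Agent.Lib.Classical.UnitaryFlat

/-!
The flat form is hyperbolic or elliptic according to the parity of the dimension.
-/

set_option autoImplicit false

namespace Cfsg.Agent.Lib.Classical.UnitaryFlat

open QuadraticMap Cfsg.Agent.Lib.Classical.Quad Cfsg.Agent.Lib.Classical.QuadOmega

variable {F : Type*} [Field F]

/-- Two norm planes as two hyperbolic planes. -/
noncomputable def planePair (a b : F) (w : Fin 2 → F) :
    ((Fin 2 → F) × (Fin 2 → F)) →ₗ[F] (Fin 2 → F) × (Fin 2 → F) :=
  LinearMap.prod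
    (LinearMap.fst F _ _ - (mulW a b w) ∘ₗ LinearMap.snd F _ _)
    (Matrix.mulVecLin !![1, a; 0, b] ∘ₗ LinearMap.fst F _ _ +
      (Matrix.mulVecLin !![1, 0; a, b] ∘ₗ mulW a b w) ∘ₗ LinearMap.snd F _ _)

variable {a b : F} {w : Fin 2 → F}

lemma planePair_val (hw : binQ a b w = -1) (p : (Fin 2 → F) × (Fin 2 → F)) :
    (planePair a b w p).1 0 * (planePair a b w p).2 0 +
      (planePair a b w p).1 1 * (planePair a b w p).2 1 = binQ a b p.1 + binQ a b p.2 := by
  have h := binQ_mulW a b w p.2
  rw [hw] at h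
  simp [binQ_apply, planePair, dotProduct, Fin.sum_univ_two] at h ⊢
  linear_combination -h

lemma planePair_injective (hab : Aniso a b) [Fintype F] (hw : binQ a b w = -1) :
    Function.Injective (planePair a b w) := by
  have hw0 : w ≠ 0 := fun h => by
    rw [h, map_zero] at hw
    exact one_ne_zero (by linear_combination hw)
  refine (injective_iff_map_eq_zero _).2 fun p hp => ?_
  obtain ⟨h1, h2⟩ := Prod.ext_iff.1 hp
  set r := mulW a b w p.2 with hr
  have e0 : p.1 = r := by
    have : p.1 - r = 0 := by simpa [planePair, hr] using h1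
    exact sub_eq_zero.1 this
  have g0 := congrFun h2 0
  have g1 := congrFun h2 1
  simp [planePair, ← hr, e0, dotProduct, Fin.sum_univ_two] at g0 g1
  have hd := aniso_disc hab
  have r1 : r 1 = 0 := by
    have : (a ^ 2 - 4 * b) * r 1 = 0 := by linear_combination a * g0 - 2 * g1
    exact (mul_eq_zero.1 this).resolve_left hd
  have r0 : r 0 = 0 := by
    have : (a ^ 2 - 4 * b) * r 0 = 0 := by linear_combination a * g1 - 2 * b * g0
    exact (mul_eq_zero.1 this).resolve_left hd
  have hr0 : r = 0 := by ext i; fin_cases i <;> assumption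
  exact Prod.ext (e0.trans hr0) (mulW_injective hab hw0 ((hr.symm.trans hr0).trans (map_zero _).symm))

/-- The coordinates of the `i`-th plane. -/
noncomputable def planeAt {m : ℕ} (z : Fin m ⊕ Fin m → F) (i : Fin m) : Fin 2 → F :=
  ![z (.inl i), z (.inr i)]

/-- The pairing of coordinates. -/
noncomputable def pairCoord (a b : F) (w : Fin 2 → F) (j : ℕ) :
    (Fin (j + j) ⊕ Fin (j + j) → F) →ₗ[F] (Fin (j + j) ⊕ Fin (j + j) → F) where
  toFun z := Sum.elim
    (Fin.append
      (fun i => (planePair a b w (planeAt z (Fin.castAdd j i), planeAt z (Fin.natAdd j i))).1 0)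
      (fun i => (planePair a b w (planeAt z (Fin.castAdd j i), planeAt z (Fin.natAdd j i))).1 1))
    (Fin.append
      (fun i => (planePair a b w (planeAt z (Fin.castAdd j i), planeAt z (Fin.natAdd j i))).2 0)
      (fun i => (planePair a b w (planeAt z (Fin.castAdd j i), planeAt z (Fin.natAdd j i))).2 1))
  map_add' z z' := by
    have h : ∀ i, planeAt (z + z') i = planeAt z i + planeAt z' i := fun i => by
      ext k; fin_cases k <;> simp [planeAt]
    ext (i | i) <;> refine Fin.addCases (fun i => ?_) (fun i => ?_) i <;>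
      simp [h, ← Prod.mk_add_mk, -Fin.natAdd_eq_addNat]
  map_smul' c z := by
    have h : ∀ i, planeAt (c • z) i = c • planeAt z i := fun i => by
      ext k; fin_cases k <;> simp [planeAt]
    ext (i | i) <;> refine Fin.addCases (fun i => ?_) (fun i => ?_) i <;>
      simp [h, ← Prod.smul_mk, -Fin.natAdd_eq_addNat]

lemma pairCoord_injective (hab : Aniso a b) [Fintype F] (hw : binQ a b w = -1) (j : ℕ) :
    Function.Injective (pairCoord a b w j) := by
  refine (injective_iff_map_eq_zero _).2 fun z hz => ?_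
  have h : ∀ i, (planeAt z (Fin.castAdd j i), planeAt z (Fin.natAdd j i)) = 0 := fun i => by
    refine planePair_injective hab hw (Eq.trans ?_ (map_zero _).symm)
    have h1 := congrFun hz (.inl (Fin.castAdd j i))
    have h2 := congrFun hz (.inl (Fin.natAdd j i))
    have h3 := congrFun hz (.inr (Fin.castAdd j i))
    have h4 := congrFun hz (.inr (Fin.natAdd j i))
    simp [pairCoord, -Fin.natAdd_eq_addNat] at h1 h2 h3 h4
    refine Prod.ext ?_ ?_ <;> ext k <;> fin_cases k <;> assumption
  ext (i | i) <;> refine Fin.addCases (fun i => ?_) (fun i => ?_) i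
  · exact congrFun (congrArg Prod.fst (h i)) 0
  · exact congrFun (congrArg Prod.snd (h i)) 0
  · exact congrFun (congrArg Prod.fst (h i)) 1
  · exact congrFun (congrArg Prod.snd (h i)) 1

lemma plus_pairCoord (hw : binQ a b w = -1) (j : ℕ) (z : Fin (j + j) ⊕ Fin (j + j) → F) :
    Cfsg.quadFormPlus (j + j) F (pairCoord a b w j z) = flatForm a b z := by
  simp only [Cfsg.quadFormPlus, flatForm, Fin.sum_univ_add, ← Finset.sum_add_distrib]
  refine Finset.sum_congr rfl fun i _ => ?_
  have h := planePair_val hw (planeAt z (Fin.castAdd j i), planeAt z (Fin.natAdd j i))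
  simp only [binQ_apply, planeAt, Matrix.cons_val_zero, Matrix.cons_val_one] at h
  simpa [pairCoord, planeAt, -Fin.natAdd_eq_addNat] using h

/-- The flat form as a quadratic form. -/
noncomputable def flatQ (a b : F) (m : ℕ) : QuadraticForm F (Fin m ⊕ Fin m → F) :=
  ∑ i : Fin m, (binQ a b).comp
    (LinearMap.funLeft F F fun k : Fin 2 => (![Sum.inl i, Sum.inr i] : Fin 2 → Fin m ⊕ Fin m) k)

lemma flatQ_apply (m : ℕ) (z : Fin m ⊕ Fin m → F) : flatQ a b m z = flatForm a b z := by
  simp [flatQ, flatForm, binQ_apply, LinearMap.funLeft_apply]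

theorem flat_even [Fintype F] (hab : Aniso a b) (j : ℕ) :
    Nonempty (Cfsg.isometryGroup F (flatForm (m := j + j) a b) ≃*
      Cfsg.isometryGroup F (Cfsg.quadFormPlus (j + j) F)) := by
  obtain ⟨w, hw⟩ := exists_binQ_eq hab (-1)
  let e := LinearEquiv.ofBijective (pairCoord a b w j) ⟨pairCoord_injective hab hw j,
    (LinearMap.injective_iff_surjective_of_finrank_eq_finrank rfl).1 (pairCoord_injective hab hw j)⟩
  exact ⟨(isoEquiv (flatForm a b) (LinearEquiv.refl F _) (Q := flatQ a b (j + j))
    fun z => (flatQ_apply _ z).symm).trans (isoEquiv _ e (Q := flatQ a b (j + j)) fun z =>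
      (plus_pairCoord hw j z).trans (flatQ_apply _ z).symm).symm⟩

theorem flat_odd [Fintype F] (hab : Aniso a b) (j : ℕ) :
    Nonempty (Cfsg.isometryGroup F (flatForm (m := j + j + 1) a b) ≃*
      Cfsg.isometryGroup F (Cfsg.quadFormMinus (j + j) F a b)) := by
  obtain ⟨w, hw⟩ := exists_binQ_eq hab (-1)
  let cut : (Fin (j + j + 1) ⊕ Fin (j + j + 1) → F) →ₗ[F] (Fin (j + j) ⊕ Fin (j + j) → F) :=
    LinearMap.funLeft F F (Sum.map Fin.castSucc Fin.castSucc)
  let top : (Fin (j + j + 1) ⊕ Fin (j + j + 1) → F) →ₗ[F] (Fin 2 → F) :=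
    LinearMap.funLeft F F fun k : Fin 2 =>
      (![Sum.inl (Fin.last _), Sum.inr (Fin.last _)] : Fin 2 → _) k
  let L : (Fin (j + j + 1) ⊕ Fin (j + j + 1) → F) →ₗ[F] ((Fin (j + j) ⊕ Fin (j + j)) ⊕ Fin 2 → F) :=
    (LinearEquiv.sumArrowLequivProdArrow _ _ F F).symm.toLinearMap ∘ₗ
      ((pairCoord a b w j ∘ₗ cut).prod top)
  have hL : ∀ z, L z = Sum.elim (pairCoord a b w j (cut z)) (top z) := fun z => rfl
  have hinj : Function.Injective L := (injective_iff_map_eq_zero _).2 fun z hz => by
    rw [hL] at hz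
    have h1 : cut z = 0 := pairCoord_injective hab hw j
      ((funext fun s => congrFun hz (.inl s) : pairCoord a b w j (cut z) = 0).trans (map_zero _).symm)
    ext (i | i) <;> induction i using Fin.lastCases
    · exact congrFun hz (.inr 0)
    · exact congrFun h1 (.inl _)
    · exact congrFun hz (.inr 1)
    · exact congrFun h1 (.inr _)
  let e := LinearEquiv.ofBijective L ⟨hinj, (LinearMap.injective_iff_surjective_of_finrank_eq_finrank
    (by rw [Module.finrank_pi, Module.finrank_pi]; simp; omega)).1 hinj⟩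
  exact ⟨(isoEquiv (flatForm a b) (LinearEquiv.refl F _) (Q := flatQ a b _)
    fun z => (flatQ_apply _ z).symm).trans (isoEquiv _ e (Q := flatQ a b _) fun z => by
      change Cfsg.quadFormMinus (j + j) F a b (L z) = _
      rw [flatQ_apply, hL, flatForm, Fin.sum_univ_castSucc]
      have h := plus_pairCoord hw j (cut z)
      simp only [Cfsg.quadFormPlus, flatForm] at h
      simp only [Cfsg.quadFormMinus, Sum.elim_inl, Sum.elim_inr, h]
      simp [cut, top, LinearMap.funLeft_apply]).symm⟩

end Cfsg.Agent.Lib.Classical.UnitaryFlat
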