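import Cfsg.Agent.Lib.Classical.Unitary
import Cfsg.Agent.Lib.Classical.Symplectic
import Cfsg.Agent.Lib.Classical.SympOrder
import Cfsg.Agent.Lib.Forms.TensorFrameMain
import Cfsg.Agent.Lib.Forms.UnitaryTI
import Cfsg.Agent.S0765

/-!
The forty non-isotropic points of the unitary space of dimension four over four elements and the forty
points of the symplectic space of dimension four over three elements.
-/

set_option autoImplicit false

namespace Cfsg.Agent.Lib.Classical.UnitaryFourTwo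

open Matrix

/-- The table. -/
def tab : ℕ := 751399904759216491507163865302955526313434271219877660290729113850431987482535790659051723073844017999249506516579535202809491876401510118939752015593874161037993416306606628757104208541251867904

/-- The image code of a symplectic vector. -/
def phi (y : ℕ) : ℕ := tab / 256 ^ y % 256

/-- Multiplication of four-element codes. -/
def fmul (a b : ℕ) : ℕ :=
  if a = 0 ∨ b = 0 then 0 else
    [1, 2, 3].getD ((([0, 0, 1, 2].getD a 0) + ([0, 0, 1, 2].getD b 0)) % 3) 0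

/-- The pairing of codes. -/
def fh (w p : ℕ) : ℕ :=
  fmul (w % 4) (fmul (p % 4) (p % 4)) ^^^ fmul (w / 4 % 4) (fmul (p / 4 % 4) (p / 4 % 4)) ^^^
    fmul (w / 16 % 4) (fmul (p / 16 % 4) (p / 16 % 4)) ^^^ fmul (w / 64 % 4) (fmul (p / 64 % 4) (p / 64 % 4))

/-- Scaling a code. -/
def fscale (s w : ℕ) : ℕ :=
  fmul s (w % 4) + 4 * fmul s (w / 4 % 4) + 16 * fmul s (w / 16 % 4) + 64 * fmul s (w / 64 % 4)

/-- The pseudo-reflection on codes. -/
def frefl (d w p : ℕ) : ℕ := w ^^^ fscale (fmul d (fh w p)) p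

/-- The transvection on codes. -/
def ttr (c x y : ℕ) : ℕ :=
  let f := c * (2 * (y % 3) * (x / 9 % 3) + 2 * (y / 3 % 3) * (x / 27 % 3) + (y / 9 % 3) * (x % 3) +
    (y / 27 % 3) * (x / 3 % 3))
  (y % 3 + f * (x % 3)) % 3 + 3 * ((y / 3 % 3 + f * (x / 3 % 3)) % 3) +
    9 * ((y / 9 % 3 + f * (x / 9 % 3)) % 3) + 27 * ((y / 27 % 3 + f * (x / 27 % 3)) % 3)

/-- The equivariance. -/
def check (c x y : ℕ) : Bool :=
  let r := frefl (c + 1) (phi y) (phi x)
  let z := phi (ttr c x y)
  z == fscale 1 r || z == fscale 2 r || z == fscale 3 r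

set_option maxRecDepth 100000 in
lemma check_all : ((List.range 81).all fun x => (List.range 81).all fun y =>
    x == 0 || (check 1 x y && check 2 x y)) = true := by decide +kernel

set_option maxRecDepth 100000 in
lemma norm_all : ((List.range 81).all fun x => x == 0 || fh (phi x) (phi x) == 1) = true := by decide +kernel

set_option maxRecDepth 100000 in
lemma inj_all : ((List.range 81).all fun x => (List.range 81).all fun y => x == 0 || y == 0 ||
    !(phi x == fscale 1 (phi y) || phi x == fscale 2 (phi y) || phi x == fscale 3 (phi y)) ||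
    x == y || x == (2 * (y % 3)) % 3 + 3 * ((2 * (y / 3 % 3)) % 3) + 9 * ((2 * (y / 9 % 3)) % 3) +
      27 * ((2 * (y / 27 % 3)) % 3)) = true := by decide +kernel

lemma phi_zero : phi 0 = 0 := by decide +kernel

lemma phi_basis : phi 36 = 4 ∧ phi 63 = 1 ∧ phi 9 = 16 ∧ phi 27 = 64 ∧ phi 1 = 21 ∧ phi 4 = 84 := by
  decide +kernel

lemma fmul_lt : ∀ a < 4, ∀ b < 4, fmul a b < 4 := by decide +kernel

lemma xor_lt : ∀ a < 4, ∀ b < 4, a ^^^ b < 4 := by decide +kernel

variable {F : Type*} [Field F]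

/-- The element with code a. -/
def emb (θ : F) (a : ℕ) : F := [0, 1, θ, θ + 1].getD a 0

lemma exists_theta [Fintype F] (hF : Fintype.card F = 4) : ∃ θ : F, θ * θ = θ + 1 := by
  classical
  haveI : CharP F 2 := charP_of_card_eq_prime_pow (f := 2) (p := 2) (by rw [hF]; norm_num)
  have h2 : (2 : F) = 0 := CharP.cast_eq_zero F 2
  obtain ⟨a, -, ha⟩ := Finset.exists_mem_notMem_of_card_lt_card
    (s := ({0, 1} : Finset F)) (t := Finset.univ) (lt_of_le_of_lt Finset.card_le_two
      (by rw [Finset.card_univ, hF]; norm_num))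
  simp only [Finset.mem_insert, Finset.mem_singleton, not_or] at ha
  have h3 := FiniteField.pow_card_sub_one_eq_one a ha.1
  rw [hF] at h3
  refine ⟨a, ?_⟩
  have h : (a - 1) * (a * a + a + 1) = 0 := by linear_combination h3
  have h' := (mul_eq_zero.1 h).resolve_left (sub_ne_zero.2 ha.2)
  linear_combination h' - (a + 1) * h2

variable {θ : F} (hθ : θ * θ = θ + 1) [CharP F 2]
include hθ

lemma emb_xor {a b : ℕ} (ha : a < 4) (hb : b < 4) : emb θ (a ^^^ b) = emb θ a + emb θ b := by
  have h2 : (2 : F) = 0 := CharP.cast_eq_zero F 2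
  interval_cases a <;> interval_cases b <;> simp [emb] <;>
    first | ring1 | linear_combination (0 : F) * hθ + (-1 : F) * h2 | linear_combination (-θ) * h2 |
      linear_combination (-(θ + 1)) * h2

lemma emb_mul {a b : ℕ} (ha : a < 4) (hb : b < 4) : emb θ (fmul a b) = emb θ a * emb θ b := by
  have h2 : (2 : F) = 0 := CharP.cast_eq_zero F 2
  interval_cases a <;> interval_cases b <;> simp [emb, fmul] <;>
    first | ring1 | linear_combination -hθ | linear_combination -hθ - θ * h2 |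
      linear_combination -hθ - (θ + 1) * h2

omit hθ in
lemma emb_inj (h1 : θ ≠ 0) (h2' : θ ≠ 1) {a : ℕ} (ha : a < 4) (h : emb θ a = 0) : a = 0 := by
  have h2 : (2 : F) = 0 := CharP.cast_eq_zero F 2
  interval_cases a
  · rfl
  · simp [emb] at h
  · simp [emb, h1] at h
  · simp only [emb, List.getD_cons_succ, List.getD_cons_zero] at h
    exact absurd (by linear_combination h - h2) h2'

omit hθ in
/-- The vector with code w. -/
def vecF (θ : F) (w : ℕ) : Fin 4 → F :=
  ![emb θ (w % 4), emb θ (w / 4 % 4), emb θ (w / 16 % 4), emb θ (w / 64 % 4)]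

lemma fh_eq (w p : ℕ) : emb θ (fh w p) = Cfsg.hermForm 4 F 2 (vecF θ w) (vecF θ p) := by
  have hd : ∀ a, a % 4 < 4 := fun a => Nat.mod_lt _ (by norm_num)
  have hm : ∀ a b : ℕ, fmul (a % 4) (fmul (b % 4) (b % 4)) < 4 := fun a b =>
    fmul_lt _ (hd a) _ (fmul_lt _ (hd b) _ (hd b))
  simp only [fh]
  rw [emb_xor hθ (xor_lt _ (xor_lt _ (hm _ _) _ (hm _ _)) _ (hm _ _)) (hm _ _),
    emb_xor hθ (xor_lt _ (hm _ _) _ (hm _ _)) (hm _ _), emb_xor hθ (hm _ _) (hm _ _)]
  simp only [emb_mul hθ (hd _) (fmul_lt _ (hd _) _ (hd _)), emb_mul hθ (hd _) (hd _)]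
  simp [Cfsg.hermForm, vecF, Fin.sum_univ_four, pow_two]

omit hθ in
lemma fh_lt (w p : ℕ) : fh w p < 4 := by
  have hd : ∀ a, a % 4 < 4 := fun a => Nat.mod_lt _ (by norm_num)
  have hm : ∀ a b : ℕ, fmul (a % 4) (fmul (b % 4) (b % 4)) < 4 := fun a b =>
    fmul_lt _ (hd a) _ (fmul_lt _ (hd b) _ (hd b))
  exact xor_lt _ (xor_lt _ (xor_lt _ (hm _ _) _ (hm _ _)) _ (hm _ _)) _ (hm _ _)

lemma vecF_scale {s : ℕ} (hs : s < 4) (w : ℕ) : vecF θ (fscale s w) = emb θ s • vecF θ w := by
  have hd : ∀ a, a % 4 < 4 := fun a => Nat.mod_lt _ (by norm_num)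
  have h0 := fmul_lt _ hs _ (hd w)
  have h1 := fmul_lt _ hs _ (hd (w / 4))
  have h2 := fmul_lt _ hs _ (hd (w / 16))
  have h3 := fmul_lt _ hs _ (hd (w / 64))
  funext i
  fin_cases i <;> simp only [vecF, fscale, Pi.smul_apply, smul_eq_mul] <;>
    simp only [← emb_mul hθ hs (hd _), Fin.zero_eta, Fin.mk_one, Fin.reduceFinMk, cons_val_zero,
      cons_val_one, cons_val] <;> congr 1 <;> omega

lemma vecF_xor (a b : ℕ) : vecF θ (a ^^^ b) = vecF θ a + vecF θ b := by
  have hd : ∀ a, a % 4 < 4 := fun a => Nat.mod_lt _ (by norm_num)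
  have key : ∀ k, (a ^^^ b) / 2 ^ k % 4 = (a / 2 ^ k % 4) ^^^ (b / 2 ^ k % 4) := fun k => by
    rw [Nat.xor_div_two_pow, show (4 : ℕ) = 2 ^ 2 from rfl, Nat.xor_mod_two_pow]
  funext i
  have k0 := key 0; have k1 := key 2; have k2 := key 4; have k3 := key 6
  simp only [pow_zero, Nat.div_one] at k0
  norm_num at k1 k2 k3
  fin_cases i <;> simp [vecF, k0, k1, k2, k3, emb_xor hθ (hd _) (hd _)]

lemma vecF_refl {d : ℕ} (hd : d < 4) (w p : ℕ) : vecF θ (frefl d w p) =
    vecF θ w + (emb θ d * Cfsg.hermForm 4 F 2 (vecF θ w) (vecF θ p)) • vecF θ p := by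
  rw [frefl, vecF_xor hθ, vecF_scale hθ (fmul_lt _ hd _ (fh_lt w p)), emb_mul hθ hd (fh_lt w p),
    fh_eq hθ]

omit hθ

variable {K : Type*} [Field K]

/-- The code of a symplectic vector. -/
def code (e : ZMod 3 ≃+* K) (y : Fin 2 ⊕ Fin 2 → K) : ℕ :=
  (e.symm (y (Sum.inl 0))).val + 3 * (e.symm (y (Sum.inl 1))).val +
    9 * (e.symm (y (Sum.inr 0))).val + 27 * (e.symm (y (Sum.inr 1))).val

omit [CharP F 2]

lemma code_lt (e : ZMod 3 ≃+* K) (y : Fin 2 ⊕ Fin 2 → K) : code e y < 81 := by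
  have h := fun i => ZMod.val_lt (e.symm (y i))
  have := h (Sum.inl 0); have := h (Sum.inl 1); have := h (Sum.inr 0); have := h (Sum.inr 1)
  simp only [code]; omega

lemma code_inj (e : ZMod 3 ≃+* K) {x y : Fin 2 ⊕ Fin 2 → K} (h : code e x = code e y) : x = y := by
  have hl := fun z : Fin 2 ⊕ Fin 2 → K => fun i => ZMod.val_lt (e.symm (z i))
  have := hl x (Sum.inl 0); have := hl x (Sum.inl 1); have := hl x (Sum.inr 0); have := hl x (Sum.inr 1)
  have := hl y (Sum.inl 0); have := hl y (Sum.inl 1); have := hl y (Sum.inr 0); have := hl y (Sum.inr 1)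
  simp only [code] at h
  have hi : ∀ i, (e.symm (x i)).val = (e.symm (y i)).val → x i = y i := fun i hv =>
    e.symm.injective (ZMod.val_injective 3 hv)
  funext i
  rcases i with i | i <;> fin_cases i <;> apply hi <;> simp <;> omega

lemma code_zero (e : ZMod 3 ≃+* K) : code e 0 = 0 := by simp [code]

lemma code_neg (e : ZMod 3 ≃+* K) (y : Fin 2 ⊕ Fin 2 → K) : code e (-y) =
    (2 * (code e y % 3)) % 3 + 3 * ((2 * (code e y / 3 % 3)) % 3) + 9 * ((2 * (code e y / 9 % 3)) % 3) +
      27 * ((2 * (code e y / 27 % 3)) % 3) := by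
  have hn : ∀ z : ZMod 3, (-z).val = 2 * z.val % 3 := by decide
  have hv := fun i => ZMod.val_lt (e.symm (y i))
  have := hv (Sum.inl 0); have := hv (Sum.inl 1); have := hv (Sum.inr 0); have := hv (Sum.inr 1)
  have g0 : code e y % 3 = (e.symm (y (Sum.inl 0))).val := by simp only [code]; omega
  have g1 : code e y / 3 % 3 = (e.symm (y (Sum.inl 1))).val := by simp only [code]; omega
  have g2 : code e y / 9 % 3 = (e.symm (y (Sum.inr 0))).val := by simp only [code]; omega
  have g3 : code e y / 27 % 3 = (e.symm (y (Sum.inr 1))).val := by simp only [code]; omega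
  rw [g0, g1, g2, g3]
  simp only [code, Pi.neg_apply, map_neg, hn]

lemma code_transv (e : ZMod 3 ≃+* K) (c : ZMod 3) (x y : Fin 2 ⊕ Fin 2 → K) :
    code e (Cfsg.sympTransvection 2 x (e c) *ᵥ y) = ttr c.val (code e x) (code e y) := by
  have hlin : Cfsg.sympTransvection 2 x (e c) *ᵥ y =
      y + (e c * Cfsg.sympForm 2 K y x) • x := by
    rw [Cfsg.sympTransvection, Matrix.add_mulVec, Matrix.one_mulVec, Matrix.smul_mulVec,
      Matrix.vecMulVec_mulVec, op_smul_eq_smul, smul_smul, Cfsg.sympForm, dotProduct_comm]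
  have hf : Cfsg.sympForm 2 K y x = -(y (Sum.inl 0) * x (Sum.inr 0)) - y (Sum.inl 1) * x (Sum.inr 1) +
      (y (Sum.inr 0) * x (Sum.inl 0) + y (Sum.inr 1) * x (Sum.inl 1)) := by
    simp [Cfsg.sympForm, dotProduct, Matrix.mulVec, Matrix.J, Fintype.sum_sum_type, Fin.sum_univ_two,
      Matrix.fromBlocks, Matrix.one_apply]
    ring
  have hl := fun z : Fin 2 ⊕ Fin 2 → K => fun i => ZMod.val_lt (e.symm (z i))
  have := hl x (Sum.inl 0); have := hl x (Sum.inl 1); have := hl x (Sum.inr 0); have := hl x (Sum.inr 1)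
  have := hl y (Sum.inl 0); have := hl y (Sum.inl 1); have := hl y (Sum.inr 0); have := hl y (Sum.inr 1)
  have d0 : code e x % 3 = (e.symm (x (Sum.inl 0))).val := by simp only [code]; omega
  have d1 : code e x / 3 % 3 = (e.symm (x (Sum.inl 1))).val := by simp only [code]; omega
  have d2 : code e x / 9 % 3 = (e.symm (x (Sum.inr 0))).val := by simp only [code]; omega
  have d3 : code e x / 27 % 3 = (e.symm (x (Sum.inr 1))).val := by simp only [code]; omega
  have g0 : code e y % 3 = (e.symm (y (Sum.inl 0))).val := by simp only [code]; omega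
  have g1 : code e y / 3 % 3 = (e.symm (y (Sum.inl 1))).val := by simp only [code]; omega
  have g2 : code e y / 9 % 3 = (e.symm (y (Sum.inr 0))).val := by simp only [code]; omega
  have g3 : code e y / 27 % 3 = (e.symm (y (Sum.inr 1))).val := by simp only [code]; omega
  simp only [ttr, d0, d1, d2, d3, g0, g1, g2, g3]
  rw [hlin, hf]
  simp only [code, Pi.add_apply, Pi.smul_apply, smul_eq_mul, map_add, map_mul, map_sub, map_neg,
    RingEquiv.symm_apply_apply]
  have hneg : ∀ a b : ZMod 3, -a - b = 2 * a + 2 * b := by decide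
  rw [hneg]
  have hcast : ∀ n : ℕ, ((n : ZMod 3)).val = n % 3 := fun n => ZMod.val_natCast 3 n
  simp only [← hcast]
  push_cast [ZMod.natCast_zmod_val]
  ring_nf

/-- The image of a symplectic vector. -/
def img (θ : F) (e : ZMod 3 ≃+* K) (y : Fin 2 ⊕ Fin 2 → K) : Fin 4 → F := vecF θ (phi (code e y))

/-- An element carried by a unitary element. -/
def Carried (θ : F) (e : ZMod 3 ≃+* K) (g : Matrix.symplecticGroup (Fin 2) K) (u : Cfsg.SU 4 F 2) : Prop :=
  ∀ y, ∃ s : F, s ≠ 0 ∧ img θ e ((g : Matrix (Fin 2 ⊕ Fin 2) (Fin 2 ⊕ Fin 2) K) *ᵥ y) =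
    s • (((u : SpecialLinearGroup (Fin 4) F) : Matrix (Fin 4) (Fin 4) F) *ᵥ img θ e y)

theorem equiv_thm [Fintype F] [Fintype K] (hF : Fintype.card F = 4) (hK : Fintype.card K = 3) :
    Nonempty (Cfsg.PSU 4 F 2 ≃* Cfsg.PSp 2 K) := by
  classical
  haveI : CharP F 2 := charP_of_card_eq_prime_pow (f := 2) (p := 2) (by rw [hF]; norm_num)
  haveI : Fact (Nat.Prime 3) := ⟨Nat.prime_three⟩
  have h2 : (2 : F) = 0 := CharP.cast_eq_zero F 2
  have hq : Fintype.card F = 2 ^ 2 := by rw [hF]; norm_num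
  obtain ⟨θ, hθ⟩ := exists_theta hF
  have hθ0 : θ ≠ 0 := fun h => by simp [h] at hθ
  have hθ1 : θ ≠ 1 := fun h => one_ne_zero (show (1 : F) = 0 by subst h; linear_combination -hθ)
  let e := ZMod.ringEquivOfPrime K Nat.prime_three hK
  have hnorm : ∀ x, x ≠ 0 → Cfsg.hermForm 4 F 2 (img θ e x) (img θ e x) = 1 := fun x hx => by
    have h := List.all_eq_true.1 norm_all (code e x) (List.mem_range.2 (code_lt e x))
    simp only [Bool.or_eq_true, beq_iff_eq] at h
    rcases h with h | h
    · exact absurd (code_inj e (h.trans (code_zero e).symm)) hx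
    · rw [img, ← fh_eq hθ, h]; simp [emb]
  have himg0 : img θ e 0 = 0 := by
    rw [img, code_zero, phi_zero]; funext i; fin_cases i <;> simp [vecF, emb]
  have H := Cfsg.Agent.Lib.Forms.hermData hq 4
  set σ := Cfsg.Agent.Lib.Forms.conjQ hq
  have S : Cfsg.Agent.Lib.Forms.Sesq σ.toRingHom (Cfsg.hermForm 4 F 2) :=
    ⟨H.add_left, H.smul_left, fun v x y => H.add_right v x y, fun c v x => H.smul_right c v x⟩
  have hsep : ∀ x, (∀ y, Cfsg.hermForm 4 F 2 x y = 0) → x = 0 := fun x hx => by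
    by_contra h0
    obtain ⟨y, hy⟩ := H.sep x h0
    exact hy (hx y)
  have hpow : ∀ a : F, a ≠ 0 → a ^ 3 = 1 := fun a ha => by
    have := FiniteField.pow_card_sub_one_eq_one a ha
    rwa [hF] at this
  -- generators
  have hgen : ∀ (x : Fin 2 ⊕ Fin 2 → K) (c : K) (g : Matrix.symplecticGroup (Fin 2) K),
      (g : Matrix (Fin 2 ⊕ Fin 2) (Fin 2 ⊕ Fin 2) K) = Cfsg.sympTransvection 2 x c →
      ∃ u, Carried θ e g u := by
    intro x c g hg
    by_cases htriv : c = 0 ∨ x = 0
    · refine ⟨1, fun y => ⟨1, one_ne_zero, ?_⟩⟩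
      have hy : (g : Matrix (Fin 2 ⊕ Fin 2) (Fin 2 ⊕ Fin 2) K) *ᵥ y = y := by
        rcases htriv with rfl | rfl <;> simp [hg, Cfsg.sympTransvection]
      simp [hy]
    push Not at htriv
    obtain ⟨hc, hx⟩ := htriv
    set d := emb θ ((e.symm c).val + 1) with hd
    have hcv : (e.symm c).val = 1 ∨ (e.symm c).val = 2 := by
      have h1 := ZMod.val_lt (e.symm c)
      have h3 : (e.symm c).val ≠ 0 := by rw [ne_eq, ZMod.val_eq_zero]; simpa using hc
      omega
    have hdd : d = θ ∨ d = θ + 1 := by rcases hcv with h | h <;> simp [hd, h, emb]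
    have hκ : d + σ d + d * σ d * Cfsg.hermForm 4 F 2 (img θ e x) (img θ e x) = 0 := by
      rw [hnorm x hx, Cfsg.Agent.Lib.Forms.conjQ_apply]
      rcases hdd with h | h <;> rw [h]
      · linear_combination (θ + 2) * hθ + (2 * θ + 1) * h2
      · linear_combination (θ + 5) * hθ + (6 * θ + 4) * h2
    obtain ⟨R, hR, hRx⟩ := Cfsg.Agent.Lib.Forms.exists_pref S hsep (fun a b => H.herm a b) hκ
    have hdet := Cfsg.Agent.Lib.Forms.det_rankOne S hRx
    rw [hnorm x hx, mul_one] at hdet
    have hd1 : 1 + d ≠ 0 := by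
      intro h
      rcases hdd with h' | h' <;> rw [h'] at h
      · exact hθ1 (by linear_combination h - h2)
      · exact hθ0 (by linear_combination h - h2)
    set lam := (1 + d) ^ 2 with hlam
    have hlam3 : lam ^ 3 = 1 := by rw [hlam, ← pow_mul, pow_mul' _ 2 3, hpow _ hd1, one_pow]
    let M : Matrix (Fin 4) (Fin 4) F := lam • (R : Matrix (Fin 4) (Fin 4) F)
    have hMdet : M.det = 1 := by
      rw [Matrix.det_smul, hdet, Fintype.card_fin, hlam, ← pow_mul, ← pow_succ,
        show 2 * 4 + 1 = 3 * 3 from rfl, pow_mul, hpow _ hd1, one_pow]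
    let u : Cfsg.SU 4 F 2 := ⟨⟨M, hMdet⟩, Herm.mem_SU.2 fun a b => by
      show Cfsg.hermForm 4 F 2 (M *ᵥ a) (M *ᵥ b) = _
      rw [Matrix.smul_mulVec, Matrix.smul_mulVec, S.smul_left, S.smul_right, hR]
      show lam * (σ lam * _) = _
      rw [Cfsg.Agent.Lib.Forms.conjQ_apply, ← mul_assoc, ← pow_succ', hlam3, one_mul]⟩
    refine ⟨u, fun y => ?_⟩
    have hlam0 : lam ≠ 0 := pow_ne_zero 2 hd1
    have h := List.all_eq_true.1 (List.all_eq_true.1 check_all (code e x) (List.mem_range.2 (code_lt e x)))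
      (code e y) (List.mem_range.2 (code_lt e y))
    simp only [Bool.or_eq_true, Bool.and_eq_true, beq_iff_eq] at h
    rcases h with h | h
    · exact absurd (code_inj e (h.trans (code_zero e).symm)) hx
    have hck : check (e.symm c).val (code e x) (code e y) = true := by
      rcases hcv with hh | hh <;> rw [hh]
      exacts [h.1, h.2]
    rw [check] at hck
    simp only [Bool.or_eq_true, beq_iff_eq, ← code_transv, RingEquiv.apply_symm_apply, ← hg] at hck
    have hv : vecF θ (frefl ((e.symm c).val + 1) (phi (code e y)) (phi (code e x))) =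
        (R : Matrix (Fin 4) (Fin 4) F) *ᵥ img θ e y := by
      rw [vecF_refl hθ (by omega), hRx]; rfl
    have fin : ∀ s, s < 4 → emb θ s ≠ 0 →
        phi (code e ((g : Matrix (Fin 2 ⊕ Fin 2) (Fin 2 ⊕ Fin 2) K) *ᵥ y)) =
          fscale s (frefl ((e.symm c).val + 1) (phi (code e y)) (phi (code e x))) →
        ∃ s : F, s ≠ 0 ∧ img θ e ((g : Matrix (Fin 2 ⊕ Fin 2) (Fin 2 ⊕ Fin 2) K) *ᵥ y) =
          s • (M *ᵥ img θ e y) := fun s hs hs0 he =>
      ⟨emb θ s / lam, div_ne_zero hs0 hlam0, by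
        rw [img, he, vecF_scale hθ hs, hv, Matrix.smul_mulVec, smul_smul, div_mul_cancel₀ _ hlam0]⟩
    rcases hck with (h' | h') | h'
    · exact fin 1 (by norm_num) (by simp [emb]) h'
    · exact fin 2 (by norm_num) (by simpa [emb] using hθ0) h'
    · exact fin 3 (by norm_num) (fun h0 => by simpa using emb_inj hθ0 hθ1 (by norm_num : 3 < 4) h0) h'
  have hall : ∀ g, ∃ u, Carried θ e g u := by
    intro g
    have hg : g ∈ Subgroup.closure {A : Matrix.symplecticGroup (Fin 2) K | ∃ (w : Fin 2 ⊕ Fin 2 → K) (c : K),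
        (A : Matrix (Fin 2 ⊕ Fin 2) (Fin 2 ⊕ Fin 2) K) = Cfsg.sympTransvection 2 w c} := by
      rw [Cfsg.Agent.S0765.result]; trivial
    induction hg using Subgroup.closure_induction with
    | mem a ha => obtain ⟨w, c, hw⟩ := ha; exact hgen w c a hw
    | one => exact ⟨1, fun y => ⟨1, one_ne_zero, by simp⟩⟩
    | mul a b _ _ ha hb =>
      obtain ⟨u, hu⟩ := ha
      obtain ⟨v, hv⟩ := hb
      refine ⟨u * v, fun y => ?_⟩
      obtain ⟨s, hs, e1⟩ := hv y
      obtain ⟨s', hs', e2⟩ := hu ((b : Matrix (Fin 2 ⊕ Fin 2) (Fin 2 ⊕ Fin 2) K) *ᵥ y)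
      refine ⟨s' * s, mul_ne_zero hs' hs, ?_⟩
      rw [Submonoid.coe_mul, ← mulVec_mulVec, e2, e1, mulVec_smul, smul_smul, mulVec_mulVec]
      rfl
    | inv a _ ha =>
      obtain ⟨u, hu⟩ := ha
      refine ⟨u⁻¹, fun y => ?_⟩
      obtain ⟨s, hs, e1⟩ := hu ((a⁻¹ : Matrix.symplecticGroup (Fin 2) K).1 *ᵥ y)
      rw [mulVec_mulVec, ← Submonoid.coe_mul, mul_inv_cancel, OneMemClass.coe_one, one_mulVec] at e1
      refine ⟨s⁻¹, inv_ne_zero hs, ?_⟩
      rw [e1, mulVec_smul, smul_smul, inv_mul_cancel₀ hs, one_smul, mulVec_mulVec]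
      have hm : ((u⁻¹ : Cfsg.SU 4 F 2).1 : SpecialLinearGroup (Fin 4) F).1 * u.1.1 = 1 :=
        congrArg (fun z : Cfsg.SU 4 F 2 => z.1.1) (inv_mul_cancel u)
      rw [hm, one_mulVec]
  -- uniqueness
  have huniq : ∀ u v g, Carried θ e g u → Carried θ e g v → u = v := by
    intro u v g hu hv
    set w := v⁻¹ * u with hw
    suffices w = 1 from (inv_mul_eq_one.1 this).symm
    have hfix : ∀ y, ∃ s : F, (w.1.1 : Matrix (Fin 4) (Fin 4) F) *ᵥ img θ e y = s • img θ e y := fun y => by
      obtain ⟨s, hs, e1⟩ := hu y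
      obtain ⟨s', hs', e2⟩ := hv y
      have hm : ((v⁻¹ : Cfsg.SU 4 F 2).1 : SpecialLinearGroup (Fin 4) F).1 * v.1.1 = 1 :=
        congrArg (fun z : Cfsg.SU 4 F 2 => z.1.1) (inv_mul_cancel v)
      refine ⟨s⁻¹ * s', ?_⟩
      have hu' : u.1.1 *ᵥ img θ e y = (s⁻¹ * s') • (v.1.1 *ᵥ img θ e y) := by
        rw [mul_smul, ← e2, e1, smul_smul, inv_mul_cancel₀ hs, one_smul]
      show ((v⁻¹ : Cfsg.SU 4 F 2).1.1 * u.1.1) *ᵥ _ = _
      rw [← mulVec_mulVec, hu', mulVec_smul, mulVec_mulVec, hm, one_mulVec]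
    have hv' : ∀ a b c d : ZMod 3, code e (fun i => Sum.elim ![e a, e b] ![e c, e d] i) =
        a.val + 3 * b.val + 9 * c.val + 27 * d.val := fun a b c d => by simp [code]
    obtain ⟨b1, b0, b2, b3, b012, b123⟩ := phi_basis
    obtain ⟨s0, e0⟩ := hfix (fun i => Sum.elim ![e 0, e 0] ![e 1, e 2] i)
    obtain ⟨s1, e1⟩ := hfix (fun i => Sum.elim ![e 0, e 0] ![e 1, e 1] i)
    obtain ⟨s2, e2⟩ := hfix (fun i => Sum.elim ![e 0, e 0] ![e 1, e 0] i)
    obtain ⟨s3, e3⟩ := hfix (fun i => Sum.elim ![e 0, e 0] ![e 0, e 1] i)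
    obtain ⟨t, et⟩ := hfix (fun i => Sum.elim ![e 1, e 0] ![e 0, e 0] i)
    obtain ⟨t', et'⟩ := hfix (fun i => Sum.elim ![e 1, e 1] ![e 0, e 0] i)
    rw [img, hv'] at e0 e1 e2 e3 et et'
    simp only [show (2 : ZMod 3).val = 2 from rfl, ZMod.val_zero, ZMod.val_one, mul_zero, mul_one,
      zero_add, add_zero, Nat.reduceMul, Nat.reduceAdd, b0, b1, b2, b3, b012, b123] at e0 e1 e2 e3 et et'
    set W := (w.1.1 : Matrix (Fin 4) (Fin 4) F) with hW
    have hcol : ∀ i j, W i j = if i = j then ![s0, s1, s2, s3] j else 0 := by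
      intro i j
      fin_cases j
      · have := congrFun e0 i; fin_cases i <;> simpa [vecF, emb, Matrix.mulVec, dotProduct, Fin.sum_univ_four] using this
      · have := congrFun e1 i; fin_cases i <;> simpa [vecF, emb, Matrix.mulVec, dotProduct, Fin.sum_univ_four] using this
      · have := congrFun e2 i; fin_cases i <;> simpa [vecF, emb, Matrix.mulVec, dotProduct, Fin.sum_univ_four] using this
      · have := congrFun e3 i; fin_cases i <;> simpa [vecF, emb, Matrix.mulVec, dotProduct, Fin.sum_univ_four] using this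
    have q0 := congrFun et 0; have q1 := congrFun et 1; have q2 := congrFun et 2
    have r1 := congrFun et' 1; have r2 := congrFun et' 2; have r3 := congrFun et' 3
    simp [vecF, emb, Matrix.mulVec, dotProduct, Fin.sum_univ_four, hcol] at q0 q1 q2 r1 r2 r3
    have hWs : W = s0 • 1 := by
      ext i j
      rw [hcol]
      fin_cases i <;> fin_cases j <;> simp [q0, q1, q2, r1, r2, r3]
      all_goals (simp_all)
    have hdet : W.det = 1 := w.1.2
    rw [hWs, Matrix.det_smul, Matrix.det_one, mul_one, Fintype.card_fin] at hdet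
    have h0 : s0 ≠ 0 := fun h => by simp [h] at hdet
    have hs1 : s0 = 1 := by rw [pow_succ, hpow _ h0, one_mul] at hdet; exact hdet
    rw [hs1, one_smul] at hWs
    exact Subtype.ext (Subtype.ext hWs)
  choose ψ hψ using hall
  let ψ' : Matrix.symplecticGroup (Fin 2) K →* Cfsg.SU 4 F 2 := MonoidHom.mk' ψ fun a b => by
    refine huniq _ _ (a * b) (hψ _) fun y => ?_
    obtain ⟨s, hs, e1⟩ := hψ b y
    obtain ⟨s', hs', e2⟩ := hψ a ((b : Matrix (Fin 2 ⊕ Fin 2) (Fin 2 ⊕ Fin 2) K) *ᵥ y)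
    refine ⟨s' * s, mul_ne_zero hs' hs, ?_⟩
    rw [Submonoid.coe_mul, ← mulVec_mulVec, e2, e1, mulVec_smul, smul_smul, mulVec_mulVec]
    rfl
  have hker : ψ'.ker ≤ Subgroup.center _ := by
    intro g hg
    have hline : ∀ y : Fin 2 ⊕ Fin 2 → K, (g : Matrix (Fin 2 ⊕ Fin 2) (Fin 2 ⊕ Fin 2) K) *ᵥ y = y ∨
        (g : Matrix (Fin 2 ⊕ Fin 2) (Fin 2 ⊕ Fin 2) K) *ᵥ y = -y := by
      intro y
      by_cases hy : y = 0
      · simp [hy]
      obtain ⟨s, hs, e1⟩ := hψ g y
      have hψ1 : ψ g = 1 := hg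
      rw [hψ1] at e1
      simp only [OneMemClass.coe_one, Matrix.SpecialLinearGroup.coe_one, one_mulVec] at e1
      set z := (g : Matrix (Fin 2 ⊕ Fin 2) (Fin 2 ⊕ Fin 2) K) *ᵥ y with hz
      have hz0 : z ≠ 0 := fun h0 => by
        rw [h0, himg0] at e1
        have := hnorm y hy
        rw [(smul_eq_zero.1 e1.symm).resolve_left hs, S.zero_left] at this
        exact zero_ne_one this
      have hs' : s = emb θ 1 ∨ s = emb θ 2 ∨ s = emb θ 3 := by
        have h3 := hpow s hs
        have hprod : (s - 1) * ((s - θ) * (s - (θ + 1))) = 0 := by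
          linear_combination h3 + (s - 1) * hθ + (-s ^ 2 * θ - s ^ 2 + s * θ + θ * (0 : F) + s - (0:F) + s * θ - θ) * h2
        rcases mul_eq_zero.1 hprod with h | h
        · exact Or.inl (by simp [emb, sub_eq_zero.1 h])
        rcases mul_eq_zero.1 h with h | h
        · exact Or.inr (Or.inl (by simp [emb, sub_eq_zero.1 h]))
        · exact Or.inr (Or.inr (by simp [emb, sub_eq_zero.1 h]))
      have heq : ∀ k < 4, s = emb θ k → phi (code e z) = fscale k (phi (code e y)) := by
        intro k hk hsk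
        have hd : ∀ a, a % 4 < 4 := fun a => Nat.mod_lt _ (by norm_num)
        have hv : vecF θ (phi (code e z)) = vecF θ (fscale k (phi (code e y))) := by
          rw [vecF_scale hθ hk, ← hsk]; exact e1
        have hinj : ∀ a b, a < 4 → b < 4 → emb θ a = emb θ b → a = b := fun a b ha hb hab => by
          have h0 : emb θ (a ^^^ b) = 0 := by
            rw [emb_xor hθ ha hb, hab]; linear_combination (emb θ b) * h2
          exact (by decide : ∀ a < 4, ∀ b < 4, a ^^^ b = 0 → a = b) a ha b hb (emb_inj hθ0 hθ1 (xor_lt _ ha _ hb) h0)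
        have k0 := hinj _ _ (hd _) (hd _) (congrFun hv 0)
        have k1 := hinj _ _ (hd _) (hd _) (congrFun hv 1)
        have k2 := hinj _ _ (hd _) (hd _) (congrFun hv 2)
        have k3 := hinj _ _ (hd _) (hd _) (congrFun hv 3)
        have hlt : phi (code e z) < 256 := Nat.mod_lt _ (by norm_num)
        have := fmul_lt k hk _ (hd (phi (code e y)))
        have := fmul_lt k hk _ (hd (phi (code e y) / 4))
        have := fmul_lt k hk _ (hd (phi (code e y) / 16))
        have := fmul_lt k hk _ (hd (phi (code e y) / 64))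
        simp only [fscale] at *
        omega
      have h := List.all_eq_true.1 (List.all_eq_true.1 inj_all (code e z) (List.mem_range.2 (code_lt e z)))
        (code e y) (List.mem_range.2 (code_lt e y))
      have hor : (phi (code e z) == fscale 1 (phi (code e y)) || phi (code e z) == fscale 2 (phi (code e y))
          || phi (code e z) == fscale 3 (phi (code e y))) = true := by
        simp only [Bool.or_eq_true, beq_iff_eq]
        rcases hs' with h' | h' | h'
        · exact Or.inl (Or.inl (heq 1 (by norm_num) h'))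
        · exact Or.inl (Or.inr (heq 2 (by norm_num) h'))
        · exact Or.inr (heq 3 (by norm_num) h')
      rw [hor] at h
      simp only [Bool.or_eq_true, beq_iff_eq, Bool.not_true, Bool.false_eq_true, or_false] at h
      rcases h with ((h | h) | h) | h
      · exact absurd (code_inj e (h.trans (code_zero e).symm)) hz0
      · exact absurd (code_inj e (h.trans (code_zero e).symm)) hy
      · exact Or.inl (code_inj e h)
      · exact Or.inr (code_inj e (h.trans (code_neg e y).symm))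
    rw [Subgroup.mem_center_iff]
    intro a
    refine Subtype.ext (Matrix.ext_iff_mulVec.2 fun y => ?_)
    rw [Submonoid.coe_mul, Submonoid.coe_mul, ← mulVec_mulVec, ← mulVec_mulVec]
    have hg' : ∃ s : K, ∀ y, (g : Matrix (Fin 2 ⊕ Fin 2) (Fin 2 ⊕ Fin 2) K) *ᵥ y = s • y := by
      obtain ⟨s, hs⟩ := LinearMap.exists_eq_smul_id_of_forall_notLinearIndependent
        (f := (g : Matrix (Fin 2 ⊕ Fin 2) (Fin 2 ⊕ Fin 2) K).mulVecLin) fun y => by
          rw [Matrix.mulVecLin_apply, LinearIndependent.pair_iff]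
          intro hli
          rcases hline y with h | h
          · exact absurd (hli 1 (-1) (by rw [h]; simp)).1 one_ne_zero
          · exact absurd (hli 1 1 (by rw [h]; simp)).1 one_ne_zero
      exact ⟨s, fun y => by simpa using LinearMap.congr_fun hs y⟩
    obtain ⟨s, hs⟩ := hg'
    rw [hs, hs, mulVec_smul]
  have hc := card_center_sp (F := K) 2 (by norm_num)
  have hcS : Nat.card (Matrix.symplecticGroup (Fin 2) K) = 51840 := by
    rw [card_symplecticGroup, hK]; norm_num [Finset.prod_range_succ]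
  have hP : Nat.card (Cfsg.PSU 4 F 2) = 25920 := by
    have := Herm.card_PSU hq (n := 4) (by norm_num)
    rw [Herm.card_GU hq] at this
    norm_num [Finset.prod_range_succ, Nat.even_iff, Nat.gcd, -Nat.card_eq_fintype_card] at this
    omega
  have hcSU : Nat.card (Cfsg.SU 4 F 2) = 25920 := by
    have := Herm.card_SU hq (n := 4) (by norm_num)
    rw [Herm.card_GU hq] at this
    norm_num [Finset.prod_range_succ, Nat.even_iff, -Nat.card_eq_fintype_card] at this
    omega
  haveI : Finite (Cfsg.PSU 4 F 2) := Nat.finite_of_card_ne_zero (by rw [hP]; norm_num)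
  haveI : Finite (Cfsg.SU 4 F 2) := Nat.finite_of_card_ne_zero (by rw [hcSU]; norm_num)
  have hrange : Nat.card ψ'.range * Nat.card ψ'.ker = 51840 := by
    rw [← hcS, ← Subgroup.index_ker, mul_comm, Subgroup.card_mul_index]
  have hkle : Nat.card ψ'.ker ≤ 2 := by
    refine (Nat.card_le_card_of_injective _ (Subgroup.inclusion_injective hker)).trans ?_
    rw [hc, hK]; norm_num
  have hrle : Nat.card ψ'.range ≤ 25920 := hcSU ▸ Subgroup.card_le_card_group _
  have hk2 : Nat.card ψ'.ker = 2 ∧ Nat.card ψ'.range = 25920 := by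
    constructor <;> nlinarith
  have heq : ψ'.ker = Subgroup.center _ :=
    Subgroup.eq_of_le_of_card_ge hker (by rw [hk2.1, hc, hK]; norm_num)
  have hsurj : Function.Surjective ψ' :=
    MonoidHom.range_eq_top.1 (Subgroup.eq_top_of_card_eq _ (by rw [hk2.2, hcSU]))
  have hbij : Function.Bijective (QuotientGroup.mk' (Subgroup.center (Cfsg.SU 4 F 2))) := by
    refine (Nat.bijective_iff_surjective_and_card _).2 ⟨QuotientGroup.mk'_surjective _, ?_⟩
    exact hcSU.trans hP.symm
  exact ⟨(MulEquiv.ofBijective _ hbij).symm.trans (((QuotientGroup.quotientMulEquivOfEq heq.symm).trans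
    (QuotientGroup.quotientKerEquivOfSurjective ψ' hsurj)).symm)⟩

end Cfsg.Agent.Lib.Classical.UnitaryFourTwo
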