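import Cfsg.Agent.Lib.Classical.UnitarySemisimpleClasses
import Cfsg.Agent.Lib.GLn.TorsionPow
import Cfsg.Agent.Lib.GLn.ReciprocalTorsion

/-!
# Classes of elements of prime order prime to `q` in unitary groups

Semisimple elements of `GU_n(q)` are conjugate as soon as their characteristic polynomials agree,
and the possible characteristic polynomials of elements with `g ^ r = 1` are the polynomials fixed
by the conjugate reciprocal map whose factors divide `X ^ r - 1`.
-/

set_option autoImplicit false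

namespace Cfsg.Agent.Lib.Classical.UnitaryTorsion

open Polynomial UniqueFactorizationMonoid Cfsg.Agent.Lib.UnitaryConj Cfsg.Agent.Lib.GLn
open Cfsg.Agent.Lib.Classical.UnitarySemisimpleClasses
open scoped Matrix

universe u

variable {K : Type u} [Field K] [Fintype K] {q n : ℕ} (hK : Fintype.card K = q ^ 2)
variable (p : ℕ) [Fact p.Prime] [CharP K p]

include hK p in
/-- Semisimple elements of `GU` with the same characteristic polynomial are conjugate in `GU`. -/
theorem isConj_GU (g h : ↥(Cfsg.GU n K q)) (hg : (orderOf g).Coprime p) (hh : (orderOf h).Coprime p)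
    (hc : ((g : GL (Fin n) K) : Matrix (Fin n) (Fin n) K).charpoly =
      ((h : GL (Fin n) K) : Matrix (Fin n) (Fin n) K).charpoly) : IsConj g h := by
  classical
  have hord : ∀ a : ↥(Cfsg.GU n K q), orderOf (a : GL (Fin n) K) = orderOf a := fun a => Subgroup.orderOf_coe a
  obtain ⟨x, hx⟩ := isConj_iff.1 (SemisimpleCharpoly.isConj_gl p (g : GL (Fin n) K) (h : GL (Fin n) K)
    (by rwa [hord]) (by rwa [hord]) hc)
  set X : Matrix (Fin n) (Fin n) K := (x : Matrix (Fin n) (Fin n) K) with hX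
  set G : Matrix (Fin n) (Fin n) K := ((g : GL (Fin n) K) : Matrix (Fin n) (Fin n) K) with hG
  set H : Matrix (Fin n) (Fin n) K := ((h : GL (Fin n) K) : Matrix (Fin n) (Fin n) K) with hH
  have hxg : X * G = H * X := congrArg Units.val (mul_inv_eq_iff_eq_mul.1 hx)
  have hGs := (mem_GU_iff hK _).1 g.2
  have hHs := (mem_GU_iff hK _).1 h.2
  set y : GL (Fin n) K := ⟨tstar hK X * X,
    ((x⁻¹ : GL (Fin n) K) : Matrix (Fin n) (Fin n) K) * tstar hK ((x⁻¹ : GL (Fin n) K) : Matrix (Fin n) (Fin n) K),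
    by rw [← mul_assoc, mul_assoc (tstar hK X) X, hX, Units.mul_inv, mul_one, ← tstar_mul, Units.inv_mul, tstar_one],
    by rw [mul_assoc, ← mul_assoc (tstar hK ((x⁻¹ : GL (Fin n) K) : Matrix (Fin n) (Fin n) K)), ← tstar_mul, hX,
      Units.mul_inv, tstar_one, one_mul, Units.inv_mul]⟩ with hy
  obtain ⟨c, hc1, hc2⟩ := exists_sqrt hK y (by
    show tstar hK (tstar hK X * X) = _
    rw [tstar_mul, tstar_tstar])
  have hyG : Commute G (y : Matrix (Fin n) (Fin n) K) := by
    have h1 : tstar hK G * (tstar hK X * X) * G = tstar hK X * X := by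
      calc tstar hK G * (tstar hK X * X) * G = tstar hK (X * G) * (X * G) := by rw [tstar_mul]; simp only [mul_assoc]
        _ = tstar hK X * (tstar hK H * H) * X := by rw [hxg, tstar_mul]; simp only [mul_assoc]
        _ = _ := by rw [hHs, mul_one]
    show G * (tstar hK X * X) = (tstar hK X * X) * G
    conv_lhs => rw [← h1]
    rw [← mul_assoc, ← mul_assoc, mul_eq_one_comm.1 hGs, one_mul]
  have hcg : Commute c (g : GL (Fin n) K) := Units.ext (hc2 G hyG).eq.symm
  have huU : x * c⁻¹ ∈ Cfsg.GU n K q := by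
    rw [mem_GU_iff hK, Units.val_mul, tstar_mul]
    calc tstar hK ((c⁻¹ : GL (Fin n) K) : Matrix (Fin n) (Fin n) K) * tstar hK X * (X * _)
        = tstar hK ((c⁻¹ : GL (Fin n) K) : Matrix (Fin n) (Fin n) K) * (tstar hK (c : Matrix (Fin n) (Fin n) K) * c) *
          ((c⁻¹ : GL (Fin n) K) : Matrix (Fin n) (Fin n) K) := by rw [hc1]; simp only [hy, mul_assoc]
      _ = 1 := by
        rw [← mul_assoc, ← tstar_mul, Units.mul_inv, tstar_one, one_mul, Units.mul_inv]
  refine isConj_iff.2 ⟨⟨_, huU⟩, Subtype.ext ?_⟩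
  show x * c⁻¹ * (g : GL (Fin n) K) * (x * c⁻¹)⁻¹ = (h : GL (Fin n) K)
  rw [← hx, _root_.mul_inv_rev, inv_inv, mul_assoc x c⁻¹, (hcg.inv_left).eq]
  group

include hK p in
/-- Unitary elements with a prescribed self-dual characteristic polynomial. -/
theorem exists_gu (P : K[X]) (hP : P.Monic) (hd : P.natDegree = n) (h0 : P.coeff 0 ≠ 0) (hs : dual hK P = P) :
    ∃ g : ↥(Cfsg.GU n K q), (orderOf g).Coprime p ∧
      ((g : GL (Fin n) K) : Matrix (Fin n) (Fin n) K).charpoly = P := by
  obtain ⟨M, m, hm, hMm, hMu, hMc⟩ := exists_unitary hK p n P hP hd h0 hs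
  have hm0 : m ≠ 0 := fun e => (Fact.out : p.Prime).ne_one (by simpa [e] using hm)
  let g : GL (Fin n) K := Units.ofPowEqOne M m hMm hm0
  refine ⟨⟨g, (mem_GU_iff hK g).2 hMu⟩, ?_, hMc⟩
  rw [← Subgroup.orderOf_coe]
  exact Nat.Coprime.of_dvd_left (orderOf_dvd_of_pow_eq_one (Units.pow_ofPowEqOne hMm hm0)) hm

include hK in
theorem coeff_zero_charpoly_ne_zero (g : GL (Fin n) K) :
    (g : Matrix (Fin n) (Fin n) K).charpoly.coeff 0 ≠ 0 := fun h0 =>
  ((Matrix.isUnit_iff_isUnit_det _).1 g.isUnit).ne_zero (by rw [Matrix.det_eq_sign_charpoly_coeff, h0, mul_zero])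

include hK p in
/-- Classes of `g ^ r = 1` in `GU` correspond to self-dual polynomials with factors dividing `X ^ r - 1`. -/
theorem card_pow_classes {r : ℕ} (hr : r.Coprime p) :
    Nat.card {C : ConjClasses ↥(Cfsg.GU n K q) // ∃ g : ↥(Cfsg.GU n K q), ConjClasses.mk g = C ∧ g ^ r = 1} =
      Nat.card {P : K[X] // P.Monic ∧ P.natDegree = n ∧ dual hK P = P ∧
        ∀ h : K[X], Irreducible h → h.Monic → h ∣ P → h ∣ X ^ r - 1} := by
  classical
  have hcop : ∀ g : ↥(Cfsg.GU n K q), g ^ r = 1 → (orderOf g).Coprime p := fun g hg =>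
    Nat.Coprime.of_dvd_left (orderOf_dvd_of_pow_eq_one hg) hr
  have hiff : ∀ g : ↥(Cfsg.GU n K q), (orderOf g).Coprime p → (g ^ r = 1 ↔
      ∀ h : K[X], Irreducible h → h.Monic → h ∣ ((g : GL (Fin n) K) : Matrix (Fin n) (Fin n) K).charpoly →
        h ∣ X ^ r - 1) := fun g hg => by
    rw [← TorsionPow.pow_eq_one_iff p (g : GL (Fin n) K) (by rwa [Subgroup.orderOf_coe]) r, ← SubmonoidClass.coe_pow,
      OneMemClass.coe_eq_one]
  have hex : ∀ P : {P : K[X] // P.Monic ∧ P.natDegree = n ∧ dual hK P = P ∧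
      ∀ h : K[X], Irreducible h → h.Monic → h ∣ P → h ∣ X ^ r - 1},
      ∃ g : ↥(Cfsg.GU n K q), g ^ r = 1 ∧ ((g : GL (Fin n) K) : Matrix (Fin n) (Fin n) K).charpoly = P.1 := by
    rintro ⟨P, hP, hd, hs, hf⟩
    have h0 : P.coeff 0 ≠ 0 := fun h0 => by
      have h1 := hf X irreducible_X monic_X (X_dvd_iff.2 h0)
      rw [X_dvd_iff, coeff_sub, coeff_one_zero, coeff_X_pow] at h1
      have hr0 : r ≠ 0 := fun e => (Fact.out : p.Prime).ne_one (by simpa [e] using hr)
      simp [Ne.symm hr0] at h1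
    obtain ⟨g, hg, hgc⟩ := exists_gu hK p P hP hd h0 hs
    exact ⟨g, (hiff g hg).2 (by rw [hgc]; exact hf), hgc⟩
  choose g hg hgc using hex
  symm
  refine Nat.card_congr (Equiv.ofBijective (fun P => ⟨ConjClasses.mk (g P), g P, rfl, hg P⟩) ⟨fun P Q e => ?_, ?_⟩)
  · have h1 := TorsionClasses.charpoly_isConj ((Cfsg.GU n K q).subtype.map_isConj
      (ConjClasses.mk_eq_mk_iff_isConj.1 (congrArg Subtype.val e)))
    exact Subtype.ext ((hgc P).symm.trans (h1.trans (hgc Q)))
  · rintro ⟨_, h, rfl, hh⟩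
    refine ⟨⟨_, Matrix.charpoly_monic _, (by rw [Matrix.charpoly_natDegree_eq_dim, Fintype.card_fin]),
      (charpoly_inv_tstar hK _ _ (mul_eq_one_comm.1 ((mem_GU_iff hK _).1 h.2))).symm, (hiff h (hcop h hh)).1 hh⟩,
      Subtype.ext (ConjClasses.mk_eq_mk_iff_isConj.2 (isConj_GU hK p _ _ (hcop _ (hg _)) (hcop h hh) ?_))⟩
    exact hgc _

theorem dual_one : dual hK (1 : K[X]) = 1 := by
  rw [dual, coeff_one_zero, map_one, inv_one, C_1, one_mul, Polynomial.map_one, ← C_1, reverse_C]

theorem dual_prod {ι : Type*} (s : Finset ι) (g : ι → K[X]) :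
    dual hK (∏ i ∈ s, g i) = ∏ i ∈ s, dual hK (g i) := by
  classical
  induction s using Finset.induction with
  | empty => simp [dual_one]
  | insert a s ha ih => rw [Finset.prod_insert ha, Finset.prod_insert ha, dual_mul, ih]

theorem dual_pow (P : K[X]) (k : ℕ) : dual hK (P ^ k) = dual hK P ^ k := by
  induction k with
  | zero => simp [dual_one]
  | succ k ih => rw [pow_succ, pow_succ, dual_mul, ih]

theorem dual_X_sub_one : dual hK (X - 1 : K[X]) = X - 1 := by
  have hd : (X - 1 : K[X]).natDegree = 1 := by simpa using natDegree_X_sub_C (1 : K)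
  have h0 : (X - 1 : K[X]).coeff 0 ≠ 0 := by simp
  ext j
  by_cases hj : j ≤ (X - 1 : K[X]).natDegree
  · rw [coeff_dual hK _ hj, hd]
    rw [hd] at hj
    obtain rfl | rfl : j = 0 ∨ j = 1 := by omega
    · simp [coeff_one]
    · simp [coeff_one]
  · rw [coeff_eq_zero_of_natDegree_lt (by rw [natDegree_dual hK h0]; omega),
      coeff_eq_zero_of_natDegree_lt (by omega)]

/-- The roots of the dual are the inverse `q`-th powers of the roots. -/
theorem aeval_dual {L : Type*} [Field L] [Algebra K L] {P : K[X]} {x y : L} (hxy : x ^ q * y = 1)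
    (h : aeval x P = 0) : aeval y (dual hK P) = 0 := by
  obtain ⟨p, k, hp, hc, -, hqp⟩ := q_eq_pow hK
  haveI := Fact.mk hp
  haveI : CharP L p := charP_of_injective_algebraMap' K p
  let φ : L →+* L := iterateFrobenius L p k
  have hφ : ∀ z : L, φ z = z ^ q := fun z => by rw [hqp]; exact iterateFrobenius_def p k z
  have hcomp : φ.comp (algebraMap K L) = (algebraMap K L).comp (qHom hK) := RingHom.ext fun a => by
    rw [RingHom.comp_apply, RingHom.comp_apply, hφ, ← map_pow]
    rfl
  have h1 : eval₂ (algebraMap K L) (x ^ q) (P.map (qHom hK)) = 0 := by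
    have h2 := hom_eval₂ P (algebraMap K L) φ x
    rw [show eval₂ (algebraMap K L) x P = 0 from h, map_zero, hcomp, hφ] at h2
    rw [eval₂_map]
    exact h2.symm
  letI : Invertible (x ^ q) := ⟨y, by rw [mul_comm, hxy], hxy⟩
  rw [dual, map_mul, show aeval y (P.map (qHom hK)).reverse =
    eval₂ (algebraMap K L) (⅟(x ^ q)) (P.map (qHom hK)).reverse from rfl,
    (eval₂_reverse_eq_zero_iff (algebraMap K L) (x ^ q) _).2 h1, mul_zero]

omit [Fact p.Prime] [CharP K p] in
/-- The orbit condition for a self-dual factor. -/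
theorem exists_neg_eq_iff {r i : ℕ} [Fact r.Prime] (hr2 : r ≠ 2) (hq0 : (q : ZMod r) ≠ 0)
    (hi : i = orderOf (q : ZMod r)) : (∃ e : ℕ, -(q : ZMod r) = ((q : ZMod r) ^ 2) ^ e) ↔ i % 4 = 2 := by
  haveI : Fact (2 < r) := ⟨lt_of_le_of_ne (Fact.out : r.Prime).two_le (Ne.symm hr2)⟩
  have hne : (-1 : ZMod r) ≠ 1 := ZMod.neg_one_ne_one
  have hipos : 0 < i := hi ▸ orderOf_pos_iff.2 (isOfFinOrder_iff_pow_eq_one.2
    ⟨r - 1, by have := (Fact.out : r.Prime).two_le; omega, ZMod.pow_card_sub_one_eq_one hq0⟩)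
  have hpow : (q : ZMod r) ^ i = 1 := hi ▸ pow_orderOf_eq_one _
  constructor
  · rintro ⟨e, he⟩
    have h1 : (q : ZMod r) ^ (2 * e + (i - 1)) = -1 := by
      rw [pow_add, pow_mul, ← he, neg_mul, ← pow_succ', Nat.sub_add_cancel hipos, hpow]
    have h2 : i ∣ 2 * (2 * e + (i - 1)) := by
      rw [hi]
      refine orderOf_dvd_of_pow_eq_one ?_
      rw [← hi, mul_comm, pow_mul, h1, neg_one_sq]
    have h3 : ¬ i ∣ 2 * e + (i - 1) := fun ⟨c, hc⟩ => hne (by rw [← h1, hc, pow_mul, hpow, one_pow])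
    obtain ⟨c, hc⟩ := h2
    rcases Nat.even_or_odd c with ⟨d, hd⟩ | ⟨d, hd⟩
    · exact absurd ⟨d, by rw [hd, Nat.mul_add i] at hc; omega⟩ h3
    · rcases Nat.even_or_odd i with ⟨j, hj⟩ | ⟨j, hj⟩
      · rcases Nat.even_or_odd j with ⟨l, hl⟩ | ⟨l, hl⟩
        · exfalso
          have h5 : i * c = 4 * (l * c) := by rw [hj, hl]; ring
          omega
        · omega
      · exfalso
        have h5 : i * c = 2 * (2 * (j * d) + j + d) + 1 := by rw [hj, hd]; ring
        omega
  · intro h
    obtain ⟨l, hl⟩ : ∃ l, i = 4 * l + 2 := ⟨i / 4, by omega⟩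
    refine ⟨l + 1, ?_⟩
    have h1 : ((q : ZMod r) ^ (2 * l + 1)) * ((q : ZMod r) ^ (2 * l + 1)) = 1 := by
      rw [← pow_add, show 2 * l + 1 + (2 * l + 1) = i by omega, hpow]
    have h2 : (q : ZMod r) ^ (2 * l + 1) = -1 := (mul_self_eq_one_iff.1 h1).resolve_left fun h2 => by
      have := orderOf_dvd_of_pow_eq_one h2
      rw [← hi] at this
      have := Nat.le_of_dvd (by omega) this
      omega
    rw [← pow_mul, show 2 * (l + 1) = (2 * l + 1) + 1 by ring, pow_succ, h2, neg_one_mul]

include hK p in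
/-- The number of self-dual polynomials with factors dividing `X ^ r - 1`. -/
theorem card_selfDual_torsion (n r i b s : ℕ) (hr : r.Prime) (hr2 : r ≠ 2) (hrp : r ≠ p)
    (hi : i = orderOf (q : ZMod r)) (hb : b = if Odd i then i else i / 2) (hs : s * b = r - 1) :
    Nat.card {P : K[X] // P.Monic ∧ P.natDegree = n ∧ dual hK P = P ∧
        ∀ h : K[X], Irreducible h → h.Monic → h ∣ P → h ∣ X ^ r - 1} =
      if i % 4 = 2 then Nat.choose (n / b + s) s else Nat.choose (n / (2 * b) + s / 2) (s / 2) := by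
  classical
  haveI : Fact r.Prime := ⟨hr⟩
  obtain ⟨k, hp, hk⟩ := FiniteField.card K p
  have hcop : p.Coprime r := (Nat.coprime_primes hp hr).2 hrp.symm
  have hmp : r.Coprime p := hcop.symm
  have hq2 : q ^ 2 = p ^ (k : ℕ) := hK.symm.trans hk
  have hq0 : (q : ZMod r) ≠ 0 := fun h => by
    rw [ZMod.natCast_eq_zero_iff] at h
    have h1 : r ∣ p ^ (k : ℕ) := hq2 ▸ h.trans (dvd_pow_self q two_ne_zero)
    exact hrp ((Nat.prime_dvd_prime_iff_eq hr hp).1 (hr.dvd_of_dvd_pow h1))
  have hb' : b = orderOf (ZMod.unitOfCoprime _ (hcop.pow_left (k : ℕ))) := by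
    rw [← orderOf_units, ZMod.coe_unitOfCoprime, ← hq2, Nat.cast_pow, orderOf_pow' _ two_ne_zero, ← hi, hb]
    rcases Nat.even_or_odd i with he | ho
    · rw [if_neg (Nat.not_odd_iff_even.2 he), Nat.gcd_eq_right (even_iff_two_dvd.1 he)]
    · rw [if_pos ho, (Nat.coprime_two_right.2 ho).gcd_eq_one, Nat.div_one]
  have hbpos : 0 < b := by rw [hb']; exact orderOf_pos _
  set T := (normalizedFactors (cyclotomic r K)).toFinset with hTdef
  have hTdeg : ∀ h ∈ T, h.natDegree = b := fun h hh => by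
    rw [hb']
    exact natDegree_of_mem_normalizedFactors_cyclotomic hk hcop (Multiset.mem_toFinset.1 hh)
  have hTcard : T.card = s := by
    rw [hTdef, normalizedFactors_cyclotomic_card hk hcop, ← hb', Nat.totient_prime hr, ← hs,
      Nat.mul_div_cancel _ hbpos]
  have hsep : (X ^ r - 1 : K[X]).Separable := by
    have h : (r : K) ≠ 0 := SemisimpleCharpoly.cast_ne_zero_of_coprime p hmp
    simpa using Polynomial.separable_X_pow_sub_C (1 : K) h one_ne_zero
  have hmul : cyclotomic r K * (X - 1) = X ^ r - 1 := cyclotomic_prime_mul_X_sub_one K r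
  have hTmon : ∀ h ∈ T, h.Monic := fun h hh => by
    rw [← normalize_normalized_factor h (Multiset.mem_toFinset.1 hh)]
    exact monic_normalize (irreducible_of_normalized_factor h (Multiset.mem_toFinset.1 hh)).ne_zero
  have hTirr : ∀ h ∈ T, Irreducible h := fun h hh => irreducible_of_normalized_factor _ (Multiset.mem_toFinset.1 hh)
  have hTdvd : ∀ h ∈ T, h ∣ cyclotomic r K := fun h hh => dvd_of_mem_normalizedFactors (Multiset.mem_toFinset.1 hh)
  have hTXr : ∀ h ∈ T, h ∣ X ^ r - 1 := fun h hh => (hTdvd h hh).trans ⟨_, hmul.symm⟩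
  have hX1 : (X - 1 : K[X]) ∉ T := fun h => by
    have hd : (X - 1 : K[X]) * (X - 1) ∣ X ^ r - 1 := hmul ▸ mul_dvd_mul_right (hTdvd _ h) _
    exact (not_isUnit_X_sub_C (1 : K)) (by simpa using hsep.squarefree _ hd)
  have hmem : ∀ h : K[X], Irreducible h → h.Monic → h ∣ X ^ r - 1 → h = X - 1 ∨ h ∈ T := by
    intro h hh hhm hd
    rw [← hmul] at hd
    rcases hh.prime.dvd_or_dvd hd with h1 | h1
    · obtain ⟨g, hg, hgh⟩ := exists_mem_normalizedFactors_of_dvd (cyclotomic_ne_zero r K) hh h1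
      refine Or.inr ?_
      rw [eq_of_monic_of_associated hhm (hTmon g (Multiset.mem_toFinset.2 hg)) hgh]
      exact Multiset.mem_toFinset.2 hg
    · refine Or.inl (eq_of_monic_of_associated hhm (by simpa using monic_X_sub_C (1 : K)) ?_)
      exact hh.associated_of_dvd (by simpa using irreducible_X_sub_C (1 : K)) h1
  have hT0 : ∀ h ∈ T, h.coeff 0 ≠ 0 := fun h hh h0 => by
    obtain ⟨g, hg⟩ := hTXr h hh
    have := congrArg (fun P : K[X] => P.coeff 0) hg
    simp [mul_coeff_zero, h0, Ne.symm hr.ne_zero, coeff_one] at this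
  have hroot : ∀ h ∈ T, AdjoinRoot.root h ^ r = 1 := fun h hh => by
    have := AdjoinRoot.mk_eq_zero.2 (hTXr h hh)
    rwa [map_sub, map_pow, AdjoinRoot.mk_X, map_one, sub_eq_zero] at this
  have hrq : ∀ h ∈ T, AdjoinRoot.root h ^ q * AdjoinRoot.root h ^ (q * (r - 1)) = 1 := fun h hh => by
    rw [← pow_add, show q + q * (r - 1) = q * r by
      rw [add_comm, ← Nat.mul_succ, Nat.succ_eq_add_one, Nat.sub_add_cancel hr.one_le],
      mul_comm, pow_mul, hroot h hh, one_pow]
  have hdual : ∀ h ∈ T, dual hK h ∈ T := by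
    intro h hh
    haveI : Fact (Irreducible h) := ⟨hTirr h hh⟩
    have hirr' := irreducible_dual hK (hTmon h hh) (hTirr h hh) (hT0 h hh)
    have h2 := aeval_dual hK (hrq h hh) (show aeval (AdjoinRoot.root h) h = 0 by rw [AdjoinRoot.aeval_eq, AdjoinRoot.mk_self])
    have hd : dual hK h ∣ X ^ r - 1 := by
      rw [minpoly.eq_of_irreducible_of_monic hirr' h2 (monic_dual hK (hT0 h hh))]
      refine minpoly.dvd K _ ?_
      rw [map_sub, map_pow, aeval_X, map_one, ← pow_mul, mul_comm, pow_mul, hroot h hh, one_pow, sub_self]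
    refine (hmem _ hirr' (monic_dual hK (hT0 h hh)) hd).resolve_left fun e => hX1 ?_
    have := congrArg (dual hK) e
    rw [dual_dual hK (hTmon h hh) (hT0 h hh), dual_X_sub_one] at this
    exact this ▸ hh
  let σ : T → T := fun h => ⟨dual hK h.1, hdual h.1 h.2⟩
  have hσσ : ∀ h, σ (σ h) = h := fun h => Subtype.ext (dual_dual hK (hTmon _ h.2) (hT0 _ h.2))
  have hfix : ∀ h : T, σ h = h ↔ ∃ e : ℕ, -(q : ZMod r) = ((q : ZMod r) ^ 2) ^ e := by
    intro h
    haveI : Fact (Irreducible (h : K[X])) := ⟨hTirr _ h.2⟩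
    haveI : FiniteDimensional K (AdjoinRoot (h : K[X])) := (AdjoinRoot.powerBasis (hTirr _ h.2).ne_zero).finite
    haveI : Finite (AdjoinRoot (h : K[X])) := Module.finite_of_finite K
    set x := AdjoinRoot.root (h : K[X]) with hx
    set y := x ^ (q * (r - 1)) with hy
    have hx0 : aeval x (h : K[X]) = 0 := by rw [AdjoinRoot.aeval_eq, AdjoinRoot.mk_self]
    have h2 := aeval_dual hK (hrq _ h.2) hx0
    have hxo : orderOf x = r := orderOf_eq_prime (hroot _ h.2) fun h1 => hX1 (by
      rw [h1] at hx0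
      have h3 : (X - 1 : K[X]) ∣ (h : K[X]) := by
        simpa using (dvd_iff_isRoot (p := (h : K[X])) (a := (1 : K))).2
          ((algebraMap K (AdjoinRoot (h : K[X]))).injective (by
            rw [map_zero, ← aeval_algebraMap_apply_eq_algebraMap_eval, map_one, hx0]))
      rw [eq_of_monic_of_associated (by simpa using monic_X_sub_C (1 : K)) (hTmon _ h.2)
        ((show Irreducible (X - 1 : K[X]) by simpa using irreducible_X_sub_C (1 : K)).associated_of_dvd (hTirr _ h.2) h3)]
      exact h.2)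
    have hexp : ∀ e : ℕ, y = x ^ ((q ^ 2) ^ e) ↔ -(q : ZMod r) = ((q : ZMod r) ^ 2) ^ e := fun e => by
      rw [show y = x ^ (q * (r - 1)) from rfl, (orderOf_pos_iff.1 (hxo.symm ▸ hr.pos)).pow_eq_pow_iff_modEq, hxo, ← ZMod.natCast_eq_natCast_iff]
      push_cast [Nat.cast_sub hr.one_le]
      rw [ZMod.natCast_self, zero_sub, mul_neg_one]
    constructor
    · intro e
      have hy0 : aeval y (h : K[X]) = 0 :=
        (congrArg (fun P : K[X] => aeval y P) (congrArg Subtype.val e)).symm.trans h2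
      let τ : AdjoinRoot (h : K[X]) →ₐ[K] AdjoinRoot (h : K[X]) :=
        AdjoinRoot.liftAlgHom (h : K[X]) (Algebra.ofId K _) y hy0
      obtain ⟨m, hm⟩ := (FiniteField.bijective_frobeniusAlgHom_pow K (AdjoinRoot (h : K[X]))).2 τ
      refine ⟨(m : ℕ), (hexp _).1 ?_⟩
      have h3 : τ x = y := AdjoinRoot.liftAlgHom_root _ _ _ _
      rw [← h3, ← hm, AlgHom.coe_pow, FiniteField.coe_frobeniusAlgHom, pow_iterate, hK]
    · rintro ⟨e, he⟩
      have h3 : ∀ j : ℕ, aeval (x ^ ((q ^ 2) ^ j)) (h : K[X]) = 0 := fun j => by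
        induction j with
        | zero => rw [pow_zero, pow_one]; exact hx0
        | succ j ih =>
          rw [pow_succ, pow_mul]
          rw [← hK] at ih ⊢
          rw [← expand_aeval, FiniteField.expand_card, map_pow, ih, zero_pow Fintype.card_ne_zero]
      have h4 := h3 e
      rw [← (hexp e).2 he] at h4
      refine Subtype.ext ?_
      exact (minpoly.eq_of_irreducible_of_monic (hTirr _ (σ h).2) h2 (hTmon _ (σ h).2)).trans
        (minpoly.eq_of_irreducible_of_monic (hTirr _ h.2) h4 (hTmon _ h.2)).symm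
  -- the parametrisation
  let f : Option T → K[X] := fun o => o.elim (X - 1) Subtype.val
  have hinj : Function.Injective f := by
    rintro (_ | a) (_ | b') h
    · rfl
    · exact absurd (show (X - 1 : K[X]) = b' from h) (fun e => hX1 (e ▸ b'.2))
    · exact absurd (show (a : K[X]) = X - 1 from h) (fun e => hX1 (e ▸ a.2))
    · exact congrArg some (Subtype.ext h)
  have hfm : ∀ o, (f o).Monic := by
    rintro (_ | a)
    · simpa [f] using monic_X_sub_C (1 : K)
    · exact hTmon _ a.2
  have hfi : ∀ o, Irreducible (f o) := by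
    rintro (_ | a)
    · simpa [f] using irreducible_X_sub_C (1 : K)
    · exact hTirr _ a.2
  have hd0 : (f none).natDegree = 1 := by simpa [f] using natDegree_X_sub_C (1 : K)
  let P : (Option T → ℕ) → K[X] := fun a => ∏ o, f o ^ a o
  have hPdeg : ∀ a, (P a).natDegree = a none + (∑ x, a (some x)) * b := fun a => by
    rw [natDegree_prod _ _ (fun o _ => pow_ne_zero _ (hfi o).ne_zero), Fintype.sum_option, natDegree_pow, hd0,
      mul_one, Finset.sum_mul]
    exact congrArg _ (Finset.sum_congr rfl fun x _ => by rw [natDegree_pow]; exact congrArg _ (hTdeg _ x.2))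
  have hPdual : ∀ a, dual hK (P a) = P (fun o => o.elim (a none) fun x => a (some (σ x))) := by
    intro a
    show dual hK (∏ o, f o ^ a o) = ∏ o, f o ^ (Option.elim o (a none) fun x => a (some (σ x)))
    rw [Fintype.prod_option, Fintype.prod_option, dual_mul, dual_pow, dual_prod]
    simp only [dual_pow]
    congr 1
    · rw [show dual hK (f none) = f none from dual_X_sub_one hK]; rfl
    · rw [← Equiv.prod_comp (Function.Involutive.toPerm σ hσσ) (fun x => dual hK (f (some x)) ^ a (some x))]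
      refine Finset.prod_congr rfl fun x _ => ?_
      show dual hK ((σ x : K[X])) ^ a (some (σ x)) = (x : K[X]) ^ a (some (σ x))
      rw [show dual hK ((σ x : K[X])) = x from congrArg Subtype.val (hσσ x)]
  have hcard : Nat.card {P : K[X] // P.Monic ∧ P.natDegree = n ∧ dual hK P = P ∧
        ∀ h : K[X], Irreducible h → h.Monic → h ∣ P → h ∣ X ^ r - 1} =
      Nat.card {a : T → ℕ // (∀ x, a (σ x) = a x) ∧ (∑ x, a x) * b ≤ n} := by
    symm
    let A : {a : T → ℕ // (∀ x, a (σ x) = a x) ∧ (∑ x, a x) * b ≤ n} → Option T → ℕ :=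
      fun a o => o.elim (n - (∑ x, a.1 x) * b) a.1
    have hA : ∀ a, (P (A a)).Monic ∧ (P (A a)).natDegree = n ∧ dual hK (P (A a)) = P (A a) ∧
        ∀ h : K[X], Irreducible h → h.Monic → h ∣ P (A a) → h ∣ X ^ r - 1 := by
      intro a
      have hn : (P (A a)).natDegree = n := by
        rw [hPdeg]; show n - _ + _ = n
        exact Nat.sub_add_cancel a.2.2
      have hinv : (fun o : Option T => o.elim (A a none) fun x => A a (some (σ x))) = A a :=
        funext fun o => by cases o with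
          | none => rfl
          | some x => exact a.2.1 x
      refine ⟨monic_prod_of_monic _ _ fun o _ => (hfm o).pow _, hn, by rw [hPdual, hinv], fun h hh hhm hd => ?_⟩
      obtain ⟨o, -, ho⟩ := hh.prime.exists_mem_finset_dvd hd
      have := hh.associated_of_dvd (hfi o) (hh.prime.dvd_of_dvd_pow ho)
      rw [eq_of_monic_of_associated hhm (hfm o) this]
      cases o with
      | none => exact ⟨_, by rw [← hmul, mul_comm]; rfl⟩
      | some x => exact hTXr _ x.2
    refine Nat.card_congr (Equiv.ofBijective (fun a => ⟨P (A a), hA a⟩) ⟨fun a c e => ?_, ?_⟩)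
    · have := TorsionClasses.prod_pow_injective f hinj hfm hfi _ _ (congrArg Subtype.val e)
      exact Subtype.ext (funext fun x => congrFun this (some x))
    · rintro ⟨Q, hQm, hQd, hQs, hQf⟩
      obtain ⟨a, rfl⟩ := TorsionClasses.exists_eq_prod f hinj Q hQm fun h hh hhm hd => by
        rcases hmem h hh hhm (hQf h hh hhm hd) with rfl | hT
        · exact ⟨none, rfl⟩
        · exact ⟨some ⟨h, hT⟩, rfl⟩
      rw [hPdual] at hQs
      have ha := TorsionClasses.prod_pow_injective f hinj hfm hfi _ _ hQs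
      have hn := hPdeg a
      rw [hQd] at hn
      refine ⟨⟨fun x => a (some x), fun x => congrFun ha (some x), by show (∑ x, a (some x)) * b ≤ n; omega⟩,
        Subtype.ext (congrArg P (funext fun o => ?_))⟩
      cases o with
      | none => show n - (∑ x, a (some x)) * b = a none; omega
      | some x => rfl
  rw [hcard, ← hTcard, ← Fintype.card_coe T]
  have hiff := exists_neg_eq_iff (q := q) hr2 hq0 hi
  split_ifs with hi4
  · rw [← ReciprocalTorsion.card_sum_le T (n / b)]
    exact Nat.card_congr (Equiv.subtypeEquivRight fun a =>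
      ⟨fun h => (Nat.le_div_iff_mul_le hbpos).2 h.2,
        fun h => ⟨fun x => by rw [(hfix x).2 (hiff.2 hi4)], (Nat.le_div_iff_mul_le hbpos).1 h⟩⟩)
  · have hne : ∀ x, σ x ≠ x := fun x e => hi4 (hiff.1 ((hfix x).1 e))
    rw [← ReciprocalTorsion.card_invariant_le σ hσσ hne (n / (2 * b))]
    refine Nat.card_congr (Equiv.subtypeEquivRight fun a => ⟨fun h => ⟨h.1, ?_⟩, fun h => ⟨h.1, ?_⟩⟩)
    · obtain ⟨c, hc⟩ : Even (∑ x, a x) := by
        rw [← ZMod.natCast_eq_zero_iff_even, Nat.cast_sum]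
        exact Finset.sum_involution (fun x _ => σ x) (fun x _ => by rw [h.1, CharTwo.add_self_eq_zero])
          (fun x _ _ => hne x) (fun x _ => Finset.mem_univ _) fun x _ => hσσ x
      have : c ≤ n / (2 * b) := (Nat.le_div_iff_mul_le (by omega)).2 (by nlinarith [h.2])
      omega
    · calc (∑ x, a x) * b ≤ 2 * (n / (2 * b)) * b := Nat.mul_le_mul_right b h.2
        _ = n / (2 * b) * (2 * b) := by ring
        _ ≤ n := Nat.div_mul_le_self _ _

end Cfsg.Agent.Lib.Classical.UnitaryTorsion
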